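import Cfsg.Agent.Lib.RuRankThree.ForcedDefs

/-! Kernel checks for the orbits of the stabilisers of two lines. -/

set_option autoImplicit false
set_option Elab.async false

namespace CfsgLib.RuRankThree

open CfsgLib.SporRecognition.CosetCert CfsgLib.RuPerm

theorem cFix_ok : ∀ j : Fin 2, sel cTabs j.1 0 = 0 ∧ sel cTabs j.1 1 = 1 := by decide +kernel

theorem cTree_ok : allBelow 12 4060 cTreeStep = true := by decide +kernel

theorem cCount_ok : ∀ l : Fin 9, countLab 12 4060 cLabel l.1 = cSizes.getD l.1 0 := by decide +kernel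

theorem bCount_ok : ∀ l : Fin 5, countLab 12 4060 bLabel l.1 = kSizes.getD l.1 0 := by decide +kernel

theorem bStep_ok : allBelow 12 4060 bStep = true := by decide +kernel

theorem label_base : bLabel 2305 = 0 ∧ cLabel 1 = 1 ∧ cLabel 2305 = 7 ∧ pLabel 2305 = 2 ∧ pLabel 1 = 1 ∧ pLabel 0 = 0 := by
  decide +kernel

end CfsgLib.RuRankThree
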