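import Cfsg.Agent.Lib.RuRankThree.Compare
import Cfsg.Agent.Lib.RuRankThree.ForcedChecks
import Cfsg.Agent.Lib.RuPerm.LabelInv

/-!
The invariant neighbourhoods of the rank three action on 4060 lines are determined by their sizes,
so a bijection intertwining the point stabilisers preserves edges.
-/

set_option autoImplicit false
set_option linter.style.haveILetI false

namespace CfsgLib.RuRankThree

open MulAction CfsgLib.RankThreeRecog CfsgLib.RuPerm CfsgLib.SporRecognition.CosetCert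

theorem bStep_spec (u : Fin 4060) :
    (pLabel u = 2 → tab RuPerm.Data.oIdx 11 u < 1755 ∧ oLine (tab RuPerm.Data.oIdx 11 u) = u) ∧
      (lz 0 u = 4 ↔ pLabel u = 1) ∧ (pLabel u = 0 ↔ (u : ℕ) = 0) := by
  have h := allBelow_spec bStep_ok u u.2
  simp only [bStep, Bool.and_eq_true, beq_iff_eq] at h
  obtain ⟨⟨h1, h2⟩, h3⟩ := h
  rw [Bool.eq_iff_iff, Nat.beq_eq, Nat.beq_eq] at h2 h3
  refine ⟨fun h => ?_, h2, h3⟩
  rw [h, show Nat.beq 2 2 = true from rfl, cond_true, Bool.and_eq_true, Nat.blt_eq, Nat.beq_eq] at h1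
  exact h1

theorem cTree_spec (u : ℕ) (hu : u < 4060) : cLabel u < 9 ∧ pLabel u = cUp.getD (cLabel u) 0 ∧
    treeStep cTabs (fun u => u) cLabel cRoot (tab Data.cRk 8) (tab Data.cVia 2) (tab Data.cSrc 12) 4060 u = true := by
  have h := allBelow_spec cTree_ok u hu
  simp only [cTreeStep, Bool.and_eq_true, Nat.blt_eq, Nat.beq_eq] at h
  exact ⟨h.1.1, h.1.2, h.2⟩

theorem pLabel_lt (u : Fin 4060) : pLabel u < 3 := by
  have h := allBelow_spec pTree_ok u u.2
  simp only [pTreeStep, Bool.and_eq_true, Nat.blt_eq] at h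
  exact h.1

/-- The suborbit is invariant under the stabiliser. -/
theorem pLabel_inv {g : grp} (hg : g • (0 : Fin 4060) = 0) (u : Fin 4060) :
    pLabel (g • u : Fin 4060) = pLabel u := by
  have h0 : g.1 0 = 0 := hg
  have hlz : lz 0 (g.1 u : Fin 4060) = lz 0 u := by
    have := lz_inv g.2 0 u
    rwa [h0] at this
  obtain ⟨-, a1, a2⟩ := bStep_spec (g.1 u)
  obtain ⟨-, b1, b2⟩ := bStep_spec u
  have hz : ((g.1 u : Fin 4060) : ℕ) = 0 ↔ (u : ℕ) = 0 := by
    constructor
    · intro h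
      have : g.1 u = g.1 0 := (Fin.ext h : g.1 u = 0).trans h0.symm
      exact congrArg Fin.val (g.1.injective this)
    · intro h
      rw [show u = 0 from Fin.ext h, h0]; rfl
  have e1 : pLabel (g.1 u : Fin 4060) = 1 ↔ pLabel u = 1 := by rw [← a1, ← b1, hlz]
  have e0 : pLabel (g.1 u : Fin 4060) = 0 ↔ pLabel u = 0 := by rw [a2, b2, hz]
  have := pLabel_lt (g.1 u)
  have := pLabel_lt u
  show pLabel (g.1 u : Fin 4060) = pLabel u
  omega

/-- The elements fixing the first line reach every line of a suborbit from its root. -/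
theorem orbit_eq {r : Fin 4060} : orbit (stabilizer grp (0 : Fin 4060)) r = {u : Fin 4060 | pLabel u = pLabel r} := by
  ext u
  constructor
  · rintro ⟨⟨g, hg⟩, rfl⟩
    exact pLabel_inv hg r
  · intro h
    have htree : ∀ i < 4060, treeStep sTabs (fun u => u) pLabel pRoot (tab RuPerm.Data.pRk 8)
        (tab RuPerm.Data.pVia 2) (tab RuPerm.Data.pSrc 12) 4060 i = true := by
      intro i hi
      have h := allBelow_spec pTree_ok i hi
      simp only [pTreeStep, Bool.and_eq_true] at h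
      exact h.2
    obtain ⟨g, hg, x, hx, hgx⟩ := reach (G := sub) (fun _ h => sub_real h) (fun u hu => hu) htree r r.2
    obtain ⟨g', hg', x', hx', hgx'⟩ := reach (G := sub) (fun _ h => sub_real h) (fun u hu => hu) htree u u.2
    obtain rfl : x = x' := Fin.ext (by rw [hx, hx', show pLabel u = pLabel r from h])
    have hm : g' * g⁻¹ ∈ sub := mul_mem hg' (inv_mem hg)
    refine ⟨⟨⟨g' * g⁻¹, sub_le hm⟩, subIn_le (Subgroup.mem_subgroupOf.2 hm)⟩, ?_⟩
    show (g' * g⁻¹) r = u
    rw [Equiv.Perm.mul_apply, show r = g x from Fin.ext hgx.symm, Equiv.Perm.inv_def, Equiv.symm_apply_apply]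
    exact Fin.ext hgx'

theorem ncard_pLabel (l : Fin 3) : {u : Fin 4060 | pLabel u = l.1}.ncard = pSizes.getD l.1 0 := by
  rw [← pCount_ok l]
  exact ncard_lab (by norm_num) pLabel l.1

theorem orbit_b : orbit (stabilizer grp (0 : Fin 4060)) (2305 : Fin 4060) = {u : Fin 4060 | pLabel u = 2} := by
  rw [orbit_eq, show ((2305 : Fin 4060) : ℕ) = 2305 from rfl, label_base.2.2.2.1]

theorem orbit_c : orbit (stabilizer grp (0 : Fin 4060)) (1 : Fin 4060) = {u : Fin 4060 | pLabel u = 1} := by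
  rw [orbit_eq, show ((1 : Fin 4060) : ℕ) = 1 from rfl, label_base.2.2.2.2.1]

/-- The parameters of the action. -/
theorem sub_model : Sub grp (0 : Fin 4060) 2305 1 4060 1755 2304 where
  finG := inferInstance
  finV := inferInstance
  pre := grp_pretransitive
  card := Nat.card_fin _
  near := by rw [orbit_b]; exact ncard_pLabel 2
  far := by rw [orbit_c]; exact ncard_pLabel 1
  ne := by norm_num
  sum := by norm_num
  kpos := by norm_num
  lpos := by norm_num
  noBlock := by norm_num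

/-- A set closed under the classes of a labelling is the union of some of them. -/
theorem eq_of_classes {N : ℕ} {lab : ℕ → ℕ} {sizes : List ℕ} {P : Finset ℕ}
    (hsize : ∀ l ∈ P, {u : Fin N | lab u = l}.ncard = sizes.getD l 0) {A : Set (Fin N)}
    (hP : ∀ u ∈ A, lab (u : Fin N) ∈ P)
    (hcl : ∀ u v : Fin N, lab u = lab v → u ∈ A → v ∈ A) :
    ∃ s ∈ P.powerset, A = {u : Fin N | lab u ∈ s} ∧ A.ncard = ∑ l ∈ s, sizes.getD l 0 := by
  classical
  let O : Finset (Fin N) := A.toFinset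
  refine ⟨O.image fun u : Fin N => lab u, ?_, ?_, ?_⟩
  · refine Finset.mem_powerset.2 fun l hl => ?_
    obtain ⟨u, hu, rfl⟩ := Finset.mem_image.1 hl
    exact hP u (Set.mem_toFinset.1 hu)
  · ext u
    constructor
    · intro hu
      exact Set.mem_ofPred.mpr (Finset.mem_image_of_mem (fun u : Fin N => lab u) (Set.mem_toFinset.2 hu))
    · intro hu
      simp only [Set.mem_ofPred_eq, Finset.mem_image] at hu
      obtain ⟨v, hv, e⟩ := hu
      exact hcl v u e (Set.mem_toFinset.1 hv)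
  · rw [Set.ncard_eq_toFinset_card', Finset.card_eq_sum_card_image (fun u : Fin N => lab u) O]
    refine Finset.sum_congr rfl fun l hl => ?_
    obtain ⟨v, hv, rfl⟩ := Finset.mem_image.1 hl
    rw [← hsize _ (hP v (Set.mem_toFinset.1 hv)), ← Set.ncard_coe_finset]
    congr 1
    ext u
    simp only [Finset.coe_filter, Set.mem_ofPred_eq]
    exact ⟨fun h => h.2, fun h => ⟨Set.mem_toFinset.2 (hcl v u h.symm (Set.mem_toFinset.1 hv)), h⟩⟩

theorem cUp_cases : ∀ l < 9, (cUp.getD l 0 = 2 → l ∈ ({7, 8} : Finset ℕ)) ∧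
    (cUp.getD l 0 = 1 → l ≠ 1 → l ∈ ({2, 3, 4, 5, 6} : Finset ℕ)) := by decide +kernel

theorem real_two_words {j : ℕ} (hj : j < 2) :
    Real (grp ⊓ stabilizer (Equiv.Perm (Fin 4060)) (0 : Fin 4060) ⊓ stabilizer (Equiv.Perm (Fin 4060)) (1 : Fin 4060))
      (sel cTabs j) := by
  have key : ∀ w : List BTree, (∀ t ∈ w, Real grp (tab t 12)) → trace (w.map fun t => tab t 12) 0 = 0 →
      trace (w.map fun t => tab t 12) 1 = 1 →
      Real (grp ⊓ stabilizer (Equiv.Perm (Fin 4060)) (0 : Fin 4060) ⊓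
        stabilizer (Equiv.Perm (Fin 4060)) (1 : Fin 4060)) (trace (w.map fun t => tab t 12)) := by
    intro w hw h0 h1
    obtain ⟨g, hg, hv⟩ := real_trace (G := grp) (ts := w.map fun t => tab t 12) fun t ht => by
      obtain ⟨s, hs, rfl⟩ := List.mem_map.1 ht
      exact hw s hs
    exact ⟨g, ⟨⟨hg, Fin.ext ((hv 0).trans h0)⟩, Fin.ext ((hv 1).trans h1)⟩, hv⟩
  have h2i : Real grp (tab RuPerm.Data.n2i 12) := real_inv n2i_ok real_n2
  have h3i : Real grp (tab RuPerm.Data.n3i 12) := real_inv n3i_ok real_n3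
  have f := cFix_ok ⟨j, hj⟩
  interval_cases j
  · exact key cWordA (by simp [cWordA, h2i, h3i, real_n2]) f.1 f.2
  · have e : sel cTabs 1 = trace (cWordB.map fun t => tab t 12) := rfl
    exact key cWordB (by simp [cWordB, h2i, h3i, real_n3, real_n6]) (e ▸ f.1) (e ▸ f.2)

/-- Invariance under the stabiliser of `0` and `1` closes a set under its orbits. -/
theorem closed_c {A : Set (Fin 4060)}
    (h : ∀ s : grp, s • (0 : Fin 4060) = 0 → s • (1 : Fin 4060) = 1 → ∀ y ∈ A, s • y ∈ A)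
    (u v : Fin 4060) (huv : cLabel u = cLabel v) (hu : u ∈ A) : v ∈ A := by
  obtain ⟨g, hg, x, hx, hgx⟩ := reach (fun _ h => real_two_words h) (fun u hu => hu)
    (fun i hi => (cTree_spec i hi).2.2) u u.2
  obtain ⟨g', hg', x', hx', hgx'⟩ := reach (fun _ h => real_two_words h) (fun u hu => hu)
    (fun i hi => (cTree_spec i hi).2.2) v v.2
  obtain rfl : x = x' := Fin.ext (by rw [hx, hx', huv])
  have hm := mul_mem hg' (inv_mem hg)
  have := h ⟨g' * g⁻¹, hm.1.1⟩ hm.1.2 hm.2 u hu
  rwa [show (⟨g' * g⁻¹, hm.1.1⟩ : grp) • u = v from ?_] at this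
  show (g' * g⁻¹) u = v
  rw [Equiv.Perm.mul_apply, show u = g x from Fin.ext hgx.symm, Equiv.Perm.inv_def, Equiv.symm_apply_apply]
  exact Fin.ext hgx'

/-- Invariance under the stabiliser of `0` and `2305` closes a set under its orbits. -/
theorem closed_b {A : Set (Fin 4060)} (hA : ∀ u ∈ A, pLabel (u : Fin 4060) = 2)
    (h : ∀ s : grp, s • (0 : Fin 4060) = 0 → s • (2305 : Fin 4060) = 2305 → ∀ y ∈ A, s • y ∈ A)
    (u v : Fin 4060) (huv : bLabel u = bLabel v) (hu : u ∈ A) : v ∈ A := by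
  have hu2 := hA u hu
  have hk5 : ∀ w : Fin 4060, pLabel w = 2 → kLabel (tab RuPerm.Data.oIdx 11 w) < 5 := by
    intro w hw
    have h := allBelow_spec kTree_ok _ ((bStep_spec w).1 hw).1
    simp only [kTreeStep, Bool.and_eq_true, Nat.blt_eq] at h
    exact h.1
  have hv2 : pLabel v = 2 := by
    by_contra hv
    rw [bLabel, bLabel, hu2, show Nat.beq (pLabel v) 2 = false from
      Bool.eq_false_iff.2 fun e => hv (Nat.eq_of_beq_eq_true e)] at huv
    have := hk5 u hu2
    simp only [cond_false, show Nat.beq 2 2 = true from rfl, cond_true] at huv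
    omega
  obtain ⟨hui, hue⟩ := (bStep_spec u).1 hu2
  obtain ⟨hvi, hve⟩ := (bStep_spec v).1 hv2
  rw [bLabel, bLabel, hu2, hv2, show Nat.beq 2 2 = true from rfl, cond_true, cond_true] at huv
  have htree : ∀ i < 1755, treeStep kTabs oLine kLabel kRoot (tab RuPerm.Data.kRk 8) (tab RuPerm.Data.kVia 2)
      (tab RuPerm.Data.kSrc 11) 1755 i = true := by
    intro i hi
    have h := allBelow_spec kTree_ok i hi
    simp only [kTreeStep, Bool.and_eq_true] at h
    exact h.2
  have hlt : ∀ i < 1755, oLine i < 4060 := fun i hi => oLine_lt ⟨i, hi⟩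
  obtain ⟨g, hg, x, hx, hgx⟩ := reach (G := kgrp) (fun _ h => kgrp_real h) hlt htree _ hui
  obtain ⟨g', hg', x', hx', hgx'⟩ := reach (G := kgrp) (fun _ h => kgrp_real h) hlt htree _ hvi
  obtain rfl : x = x' := Fin.ext (by rw [hx, hx', huv])
  have hm := mul_mem hg' (inv_mem hg)
  have hb : base 6 = (2305 : Fin 4060) := Fin.ext baseAt_ok.2.1
  have hs0 : (⟨g' * g⁻¹, kgrp_le_grp hm⟩ : grp) ∈ stab0 := subIn_le (Subgroup.mem_subgroupOf.2 (kgrp_le hm))
  have := h ⟨g' * g⁻¹, kgrp_le_grp hm⟩ hs0 (by rw [← hb]; exact kgrp_fix hm) u hu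
  rwa [show (⟨g' * g⁻¹, kgrp_le_grp hm⟩ : grp) • u = v from ?_] at this
  show (g' * g⁻¹) u = v
  rw [Equiv.Perm.mul_apply, show u = g x from Fin.ext (hue ▸ hgx.symm), Equiv.Perm.inv_def,
    Equiv.symm_apply_apply]
  exact Fin.ext (hgx'.trans hve)

theorem ncard_cLabel {l : ℕ} (hl : l < 9) : {u : Fin 4060 | cLabel u = l}.ncard = cSizes.getD l 0 := by
  rw [← cCount_ok ⟨l, hl⟩]
  exact ncard_lab (by norm_num) cLabel l

/-- An admissible invariant set of the first suborbit has 730 lines and is determined. -/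
theorem nearNear_unique (A : Set (Fin 4060)) (hsub : A ⊆ orbit (stabilizer grp (0 : Fin 4060)) (2305 : Fin 4060))
    (hb : (2305 : Fin 4060) ∉ A)
    (hinv : ∀ s : grp, s • (0 : Fin 4060) = 0 → s • (2305 : Fin 4060) = 2305 → ∀ y ∈ A, s • y ∈ A)
    (hlt : A.ncard + 1 < 1755) (hdvd : 2304 ∣ 1755 * (1755 - 1 - A.ncard)) :
    A = {u : Fin 4060 | bLabel u ∈ ({2, 3, 4} : Finset ℕ)} ∧ A.ncard = 730 := by
  rw [orbit_b] at hsub
  have hcl := closed_b (fun u hu => hsub hu) hinv
  have hP : ∀ u ∈ A, bLabel (u : Fin 4060) ∈ ({1, 2, 3, 4} : Finset ℕ) := by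
    intro u hu
    have h2 : pLabel (u : Fin 4060) = 2 := hsub hu
    have hlt5 : bLabel (u : Fin 4060) < 5 := by
      rw [bLabel, h2, show Nat.beq 2 2 = true from rfl, cond_true]
      have h := allBelow_spec kTree_ok _ ((bStep_spec u).1 h2).1
      simp only [kTreeStep, Bool.and_eq_true, Nat.blt_eq] at h
      exact h.1
    have hne : bLabel (u : Fin 4060) ≠ 0 := fun e => hb (hcl u 2305 (e.trans label_base.1.symm) hu)
    simp only [Finset.mem_insert, Finset.mem_singleton]
    omega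
  have hsize : ∀ l ∈ ({1, 2, 3, 4} : Finset ℕ), {u : Fin 4060 | bLabel u = l}.ncard = kSizes.getD l 0 := by
    intro l hl
    have h5 : l < 5 := by simp only [Finset.mem_insert, Finset.mem_singleton] at hl; omega
    rw [← bCount_ok ⟨l, h5⟩]
    exact ncard_lab (by norm_num) bLabel l
  obtain ⟨s, hs, e, hn⟩ := eq_of_classes hsize hP hcl
  have key : ∀ s ∈ ({1, 2, 3, 4} : Finset ℕ).powerset, (∑ l ∈ s, kSizes.getD l 0) + 1 < 1755 →
      2304 ∣ 1755 * (1755 - 1 - ∑ l ∈ s, kSizes.getD l 0) →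
      s = {2, 3, 4} ∧ (∑ l ∈ s, kSizes.getD l 0) = 730 := by decide +kernel
  obtain ⟨rfl, h730⟩ := key s hs (hn ▸ hlt) (hn ▸ hdvd)
  exact ⟨e, hn.trans h730⟩

/-- An invariant set of 780 lines of the first suborbit is determined. -/
theorem farNear_unique (A : Set (Fin 4060)) (hsub : A ⊆ orbit (stabilizer grp (0 : Fin 4060)) (2305 : Fin 4060))
    (hinv : ∀ s : grp, s • (0 : Fin 4060) = 0 → s • (1 : Fin 4060) = 1 → ∀ y ∈ A, s • y ∈ A)
    (hn780 : A.ncard = 780) : A = {u : Fin 4060 | cLabel u ∈ ({8} : Finset ℕ)} := by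
  rw [orbit_b] at hsub
  have hP : ∀ u ∈ A, cLabel (u : Fin 4060) ∈ ({7, 8} : Finset ℕ) := by
    intro u hu
    have h2 : pLabel (u : Fin 4060) = 2 := hsub hu
    obtain ⟨h9, hup, -⟩ := cTree_spec u u.2
    exact (cUp_cases _ h9).1 (hup.symm.trans h2)
  obtain ⟨s, hs, e, hn⟩ := eq_of_classes (fun l hl => ncard_cLabel (by
    simp only [Finset.mem_insert, Finset.mem_singleton] at hl; omega)) hP (closed_c hinv)
  have key : ∀ s ∈ ({7, 8} : Finset ℕ).powerset, (∑ l ∈ s, cSizes.getD l 0) = 780 → s = {8} := by decide +kernel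
  obtain rfl := key s hs (hn.symm.trans hn780)
  exact e

/-- An invariant set of 975 lines of the second suborbit is determined. -/
theorem farFar_unique (A : Set (Fin 4060)) (hsub : A ⊆ orbit (stabilizer grp (0 : Fin 4060)) (1 : Fin 4060))
    (hc : (1 : Fin 4060) ∉ A)
    (hinv : ∀ s : grp, s • (0 : Fin 4060) = 0 → s • (1 : Fin 4060) = 1 → ∀ y ∈ A, s • y ∈ A)
    (hn975 : A.ncard = 975) : A = {u : Fin 4060 | cLabel u ∈ ({4} : Finset ℕ)} := by
  rw [orbit_c] at hsub
  have hcl := closed_c hinv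
  have hP : ∀ u ∈ A, cLabel (u : Fin 4060) ∈ ({2, 3, 4, 5, 6} : Finset ℕ) := by
    intro u hu
    have h1 : pLabel (u : Fin 4060) = 1 := hsub hu
    obtain ⟨h9, hup, -⟩ := cTree_spec u u.2
    have hne : cLabel (u : Fin 4060) ≠ 1 := fun e => hc (hcl u 1 (e.trans label_base.2.1.symm) hu)
    exact (cUp_cases _ h9).2 (hup.symm.trans h1) hne
  obtain ⟨s, hs, e, hn⟩ := eq_of_classes (fun l hl => ncard_cLabel (by
    simp only [Finset.mem_insert, Finset.mem_singleton] at hl; omega)) hP hcl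
  have key : ∀ s ∈ ({2, 3, 4, 5, 6} : Finset ℕ).powerset, (∑ l ∈ s, cSizes.getD l 0) = 975 → s = {4} := by
    decide +kernel
  obtain rfl := key s hs (hn.symm.trans hn975)
  exact e

/-- The divisibility forced by counting pairs. -/
theorem dvd_of_count {G : Type*} [Group G] {W : Type*} [MulAction G W] {a b c : W}
    (h : Sub G a b c 4060 1755 2304) : 2304 ∣ 1755 * (1755 - 1 - (nearNear G a b).ncard) := by
  refine ⟨(farNear G a b c).ncard, ?_⟩
  rw [← double_count h]
  have := ncard_nearNear_add h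
  congr 1
  omega

universe u' v'

variable {G : Type u'} [Group G] {W : Type v'} [MulAction G W] {a b c : W}

/-- The neighbours of the second base line in the first suborbit number 730. -/
theorem ncard_parts (h : Sub G a b c 4060 1755 2304) (h730 : (nearNear G a b).ncard = 730) :
    (farNear G a b c).ncard = 780 ∧ (farFar G a b c).ncard = 975 := by
  have h1 := double_count h
  have h2 := ncard_nearNear_add h
  have h3 := ncard_farNear_add h
  omega

/-- A bijection intertwining the point stabilisers preserves edges. -/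
theorem edge_iff_model (φ : stabilizer grp (0 : Fin 4060) ≃* stabilizer G a) (hG : Sub G a b c 4060 1755 2304)
    (ψ : Fin 4060 ≃ W) (ha : ψ 0 = a) (hb : ψ 2305 = b) (hc : ψ 1 = c)
    (hψ : ∀ (s : stabilizer grp (0 : Fin 4060)) (x : Fin 4060), ψ (s • x) = φ s • ψ x) (x y : Fin 4060) :
    Edge G a b (ψ x) (ψ y) ↔ Edge grp (0 : Fin 4060) 2305 x y := by
  have hS := sub_model
  have hpre : ∀ T : Set W, (ψ ⁻¹' T).ncard = T.ncard := fun T => by
    rw [← Equiv.image_symm_eq_preimage, Set.ncard_image_of_injective _ ψ.symm.injective]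
  obtain ⟨eS, nS⟩ := nearNear_unique (nearNear grp (0 : Fin 4060) 2305) (fun w hw => hw.1)
    (fun hw => edge_irrefl hS _ hw.2) (fun s => nearNear_invariant) (nearNear_lt hS) (dvd_of_count hS)
  obtain ⟨eG, nG⟩ := nearNear_unique (ψ ⁻¹' nearNear G a b) (fun w hw => (map_orbit φ ψ hψ hb w).1 hw.1)
    (fun hw => edge_irrefl hG b (by rw [Set.mem_preimage, hb] at hw; exact hw.2))
    (fun s => pre_invariant φ ψ hψ hb (fun g => nearNear_invariant) s)
    (by rw [hpre]; exact nearNear_lt hG) (by rw [hpre]; exact dvd_of_count hG)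
  rw [hpre] at nG
  obtain ⟨s1, s2⟩ := ncard_parts hS nS
  obtain ⟨g1, g2⟩ := ncard_parts hG nG
  refine edge_iff_parts φ hS hG ψ ha hb hc hψ (eG.trans eS.symm) ?_ ?_ x y
  · refine (farNear_unique _ (fun w hw => (map_orbit φ ψ hψ hb w).1 hw.1)
      (fun s => pre_invariant φ ψ hψ hc (fun g => farNear_invariant) s) (by rw [hpre]; exact g1)).trans
      (farNear_unique _ (fun w hw => hw.1) (fun s => farNear_invariant) s1).symm
  · refine (farFar_unique _ (fun w hw => (map_orbit φ ψ hψ hc w).1 hw.1)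
      (fun hw => edge_irrefl hG c (by rw [Set.mem_preimage, hc] at hw; exact hw.2))
      (fun s => pre_invariant φ ψ hψ hc (fun g => farFar_invariant) s) (by rw [hpre]; exact g2)).trans
      (farFar_unique _ (fun w hw => hw.1) (fun hw => edge_irrefl hS _ hw.2) (fun s => farFar_invariant) s2).symm

end CfsgLib.RuRankThree
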