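import Cfsg.Agent.Lib.RuPerm.RecogEdge
import Cfsg.Agent.Lib.RuPerm.TwistedStab
import Cfsg.Agent.Lib.Components2.TitsTwoTransMain
import Cfsg.Agent.Lib.BNPair.Parabolic

/-!
The subgroups of index 1755 of the line stabiliser are the stabilisers of the lines of the suborbit of that size:
in `²F₄(2)` they are the conjugates of one maximal parabolic subgroup.
-/

set_option autoImplicit false
set_option Elab.async false
set_option maxRecDepth 10000

namespace CfsgLib.RuRankThree

open MulAction

set_option quotPrecheck false in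
local notation "G2" => ↥(Cfsg.Lie.twistedF4 (ZMod 2) 1)

/-- A subgroup of index 1755 contains a conjugate of the group `B`, and is a parabolic subgroup. -/
theorem exists_conj_parabolic {G : Type*} [Group G] [Finite G] (P : Cfsg.BNPair G) (s : ℕ → G)
    (hmem : ∀ k < 2, s k ∈ P.S) (hcover : ∀ x ∈ P.S, ∃ k < 2, x = s k) (hBc : Nat.card P.B = 4096)
    (hPc : ∀ k < 2, Nat.card (P.parabolic {s k}) = 4096 * (if k = 0 then 3 else 5))
    (hG : Nat.card G = 35942400) (M : Subgroup G) (h : M.index = 1755) :
    ∃ g : G, M.map (MulAut.conj g).toMonoidHom = P.parabolic {s 1} := by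
  have : Fact (Nat.Prime 2) := ⟨Nat.prime_two⟩
  have hM : Nat.card M = 20480 := by
    have := M.card_mul_index
    rw [h, hG] at this
    omega
  obtain ⟨Q⟩ : Nonempty (Sylow 2 M) := inferInstance
  have hQc : Nat.card Q.toSubgroup = 4096 := by
    obtain ⟨a, ha⟩ := IsPGroup.iff_card.1 Q.isPGroup'
    have h1 := Q.toSubgroup.card_mul_index
    rw [hM, ha] at h1
    have hodd := Q.not_dvd_index
    have ha' : a < 15 := by
      by_contra hlt
      have h2 : 2 ^ 15 ≤ 2 ^ a := Nat.pow_le_pow_right (by norm_num) (by omega)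
      have h3 : 2 ^ a ∣ 20480 := Dvd.intro _ h1
      have := Nat.le_of_dvd (by norm_num) h3
      omega
    rw [ha]
    interval_cases a <;> norm_num at h1 ⊢ <;> omega
  have hBp : IsPGroup 2 P.B := IsPGroup.of_card (n := 12) (by rw [hBc]; norm_num)
  have hBi : ¬ 2 ∣ P.B.index := by
    have := P.B.card_mul_index
    rw [hBc, hG] at this
    omega
  have hQ' : Nat.card (Q.toSubgroup.map M.subtype) = 4096 := by
    rw [Subgroup.card_map_of_injective M.subtype_injective, hQc]
  obtain ⟨P', hP'⟩ := (Q.isPGroup'.map M.subtype).exists_le_sylow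
  obtain ⟨g, hg⟩ := MulAction.exists_smul_eq G P' (hBp.toSylow hBi)
  have hgP : P'.toSubgroup.map (MulAut.conj g).toMonoidHom = P.B := congrArg Sylow.toSubgroup hg
  refine ⟨g, ?_⟩
  set M' := M.map (MulAut.conj g).toMonoidHom with hM'
  have hM'c : Nat.card M' = 20480 := (Subgroup.card_map_of_injective (MulAut.conj g).injective).trans hM
  have hP'eq : Q.toSubgroup.map M.subtype = P'.toSubgroup := by
    refine Subgroup.eq_of_le_of_card_ge hP' ?_
    have : Nat.card P'.toSubgroup = Nat.card P.B := by
      rw [← hgP, Subgroup.card_map_of_injective (MulAut.conj g).injective]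
    rw [hQ', this, hBc]
  have hB : P.B ≤ M' := by
    rw [← hgP, ← hP'eq]
    exact Subgroup.map_mono (Subgroup.map_subtype_le _)
  have hover := CfsgLib.BNPair.overgroup_eq hB
  set J := {x | x ∈ P.S ∧ x ∈ M'} with hJ
  have hall : ¬ (s 0 ∈ M' ∧ s 1 ∈ M') := by
    rintro ⟨h0, h1⟩
    have htop : (⊤ : Subgroup G) = M' := by
      rw [CfsgLib.BNPair.overgroup_eq (le_top : P.B ≤ ⊤), hover]
      congr 1
      ext x
      refine ⟨fun hs => ⟨hs.1, ?_⟩, fun hs => ⟨hs.1, Subgroup.mem_top x⟩⟩
      obtain ⟨k, hk, rfl⟩ := hcover x hs.1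
      interval_cases k
      exacts [h0, h1]
    have := congrArg (fun K : Subgroup G => Nat.card K) htop
    simp only [Subgroup.card_top, hG, hM'c] at this
    omega
  have hcard : ∀ k < 2, J = {s k} → Nat.card M' = 4096 * (if k = 0 then 3 else 5) := fun k hk e => by
    rw [hover, e, hPc k hk]
  by_cases h1 : s 1 ∈ M'
  · have e : J = {s 1} := by
      ext x
      refine ⟨fun hs => ?_, fun hs => by rw [Set.mem_singleton_iff.1 hs]; exact ⟨hmem 1 (by norm_num), h1⟩⟩
      obtain ⟨k, hk, rfl⟩ := hcover x hs.1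
      interval_cases k
      · exact absurd ⟨hs.2, h1⟩ hall
      · rfl
    rw [hover, e]
  · exfalso
    by_cases h0 : s 0 ∈ M'
    · have := hcard 0 (by norm_num) (by
        ext x
        refine ⟨fun hs => ?_, fun hs => by rw [Set.mem_singleton_iff.1 hs]; exact ⟨hmem 0 (by norm_num), h0⟩⟩
        obtain ⟨k, hk, rfl⟩ := hcover x hs.1
        interval_cases k
        · rfl
        · exact absurd hs.2 h1)
      simp only [hM'c] at this
      norm_num at this
    · have e : J = ∅ := by
        rw [Set.eq_empty_iff_forall_notMem]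
        intro x hs
        obtain ⟨k, hk, rfl⟩ := hcover x hs.1
        interval_cases k
        exacts [h0 hs.2, h1 hs.2]
      rw [hover, e, Cfsg.BNPair.parabolic, Subgroup.closure_empty, sup_bot_eq, hBc] at hM'c
      norm_num at hM'c

/-- The subgroups of index 1755 of `²F₄(2)` are conjugate. -/
theorem conj_of_index (M₁ M₂ : Subgroup G2) (h₁ : M₁.index = 1755) (h₂ : M₂.index = 1755) :
    ∃ g : G2, M₁.map (MulAut.conj g).toMonoidHom = M₂ := by
  obtain ⟨S⟩ := CfsgLib.Components2.TitsTwo.exists_setup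
  have hG := CfsgLib.Twisted.Tits.card_eq
  obtain ⟨g₁, e₁⟩ := exists_conj_parabolic S.P S.s S.mem S.cover S.cardB S.cardP hG M₁ h₁
  obtain ⟨g₂, e₂⟩ := exists_conj_parabolic S.P S.s S.mem S.cover S.cardB S.cardP hG M₂ h₂
  refine ⟨g₂⁻¹ * g₁, ?_⟩
  rw [← e₂] at e₁
  rw [map_mul, MulAut.mul_def, show (((MulAut.conj g₁).trans (MulAut.conj g₂⁻¹)).toMonoidHom) =
      (MulAut.conj g₂⁻¹).toMonoidHom.comp (MulAut.conj g₁).toMonoidHom from rfl, ← Subgroup.map_map, e₁,
    Subgroup.map_map]
  convert Subgroup.map_id M₂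
  ext x
  simp [mul_assoc]

open CfsgLib.RuPerm in
/-- The subgroups of index 1755. -/
theorem stab_of_index_points (H : Subgroup stab0) (h : H.index = 1755) :
    ∃ b : Fin 4060, pLabel b = 2 ∧ H = MulAction.stabilizer stab0 b := by
  have horb : orbit stab0 Recog.nearPt = Recog.labSet 2 := Recog.near_orbit
  have hidx : (MulAction.stabilizer stab0 Recog.nearPt).index = 1755 := by
    rw [MulAction.index_stabilizer, horb]
    exact Recog.ncard_labSet 2
  obtain ⟨g, hg⟩ := conj_of_index ((MulAction.stabilizer stab0 Recog.nearPt).comap stab0Equiv.toMonoidHom)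
    (H.comap stab0Equiv.toMonoidHom)
    (by rw [Subgroup.index_comap_of_surjective _ stab0Equiv.surjective, hidx])
    (by rw [Subgroup.index_comap_of_surjective _ stab0Equiv.surjective, h])
  refine ⟨stab0Equiv g • Recog.nearPt, ?_, ?_⟩
  · have hmem : stab0Equiv g • Recog.nearPt ∈ orbit stab0 Recog.nearPt := MulAction.mem_orbit _ _
    rw [horb] at hmem
    exact hmem
  · have hmap := congrArg (Subgroup.map stab0Equiv.toMonoidHom) hg
    rw [Subgroup.map_map, Subgroup.map_comap_eq_self_of_surjective stab0Equiv.surjective,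
      show stab0Equiv.toMonoidHom.comp (MulAut.conj g).toMonoidHom =
        (MulAut.conj (stab0Equiv g)).toMonoidHom.comp stab0Equiv.toMonoidHom from
        MonoidHom.ext fun x => by simp,
      ← Subgroup.map_map, Subgroup.map_comap_eq_self_of_surjective stab0Equiv.surjective] at hmap
    rw [MulAction.stabilizer_smul_eq_stabilizer_map_conj, ← hmap]

end CfsgLib.RuRankThree
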