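import Cfsg.Agent.Lib.RuRankThree.Index
import Cfsg.Agent.Lib.RuRankThree.Points
import Cfsg.Agent.Lib.RuRankThree.Forced
import Cfsg.Agent.Lib.RuPerm.RecogRigid
import Cfsg.Agent.Lib.RuPerm.Cover
import Cfsg.Agent.Lib.RankThreeRecog.RecogniseBound

/-! A rank three group on 4060 points with the point stabiliser of the model is the model. -/

set_option autoImplicit false
set_option maxRecDepth 10000

namespace CfsgLib.RuRankThree

open MulAction CfsgLib.RankThreeRecog

universe u v w

/-- A point of the suborbit with the transported stabiliser. -/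
theorem exists_point {K : Type u} [Group K] {V : Type v} [MulAction K V] {L : Type w} [Group L] {W : Type*}
    [MulAction L W] (φ : K ≃* L) (n : ℕ) (P : V → Prop) (v0 : V) (hv0 : ∀ v, P v → v ∈ orbit K v0)
    (hcls : ∀ H : Subgroup K, H.index = n → ∃ v, P v ∧ H = stabilizer K v)
    (x : W) (hx : (orbit L x).ncard = n) :
    ∃ x' ∈ orbit L x, ∀ s : K, φ s • x' = x' ↔ s • v0 = v0 := by
  have hidx : ((stabilizer L x).comap φ.toMonoidHom).index = n := by
    rw [Subgroup.index_comap_of_surjective _ φ.surjective, index_stabilizer, hx]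
  obtain ⟨v, hv, he⟩ := hcls _ hidx
  obtain ⟨z, hz⟩ := hv0 v hv
  refine ⟨φ z⁻¹ • x, ⟨φ z⁻¹, rfl⟩, fun s => ?_⟩
  have hz' : z • v0 = v := hz
  have h1 : φ (z * s * z⁻¹) • x = x ↔ (z * s * z⁻¹) • v = v :=
    (Subgroup.ext_iff.1 he (z * s * z⁻¹))
  rw [← hz', mul_smul (z * s), inv_smul_smul, mul_smul, smul_left_cancel_iff] at h1
  rw [← h1, map_mul, map_mul, mul_smul, mul_smul, map_inv]
  constructor
  · intro h
    rw [h, smul_inv_smul]
  · intro h
    exact eq_inv_smul_iff.2 h

/-- The recognition, with the isomorphism onto the stabiliser of the model. -/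
theorem nonempty_iso_model {W : Type u} [Fintype W] [DecidableEq W] (hW : Fintype.card W = 4060)
    (G : Subgroup (Equiv.Perm W)) [IsPretransitive G W] (a : W)
    (φ : stabilizer RuPerm.grp (0 : Fin 4060) ≃* stabilizer G a) (b c : W)
    (hb : (orbit (stabilizer G a) b).ncard = 1755) (hc : (orbit (stabilizer G a) c).ncard = 2304) :
    Nonempty (G ≃* RuPerm.grp) := by
  obtain ⟨b', hb', hb''⟩ := exists_point φ 1755 (fun v : Fin 4060 => RuPerm.pLabel v = 2) RuPerm.Recog.nearPt
    (fun v hv => RuPerm.Recog.near_orbit.superset hv) (fun H hH => stab_of_index_points H hH) b hb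
  obtain ⟨c', hc', hc''⟩ := exists_point φ 2304 (fun v : Fin 4060 => RuPerm.pLabel v = 1) RuPerm.Recog.farPt
    (fun v hv => RuPerm.Recog.far_orbit.superset hv) (fun H hH => stab_of_index H hH) c hc
  have hG : Sub G a b' c' 4060 1755 2304 :=
    { finG := inferInstance
      finV := inferInstance
      pre := inferInstance
      card := by rw [Nat.card_eq_fintype_card, hW]
      near := by rw [orbit_eq_iff.2 hb', hb]
      far := by rw [orbit_eq_iff.2 hc', hc]
      ne := by norm_num
      sum := by norm_num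
      kpos := by norm_num
      lpos := by norm_num
      noBlock := by norm_num }
  obtain ⟨ψ, ha, hψb, hψc, hψ⟩ := exists_map φ RuPerm.Recog.sub_grp hG hb'' hc''
  exact nonempty_iso_of_edge_bound 3606 RuPerm.grp (0 : Fin 4060) RuPerm.Recog.nearPt RuPerm.Recog.farPt
    G a b' c' RuPerm.Recog.sub_grp hG φ ψ hψ (edge_iff_model φ hG ψ ha hψb hψc hψ)
    RuPerm.Recog.card_graph_stab_le RuPerm.Recog.size_ok

end CfsgLib.RuRankThree
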