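import Cfsg.Agent.Lib.RankThreeRecog.Compare

/-! A bijection matching the three kinds of neighbourhood preserves edges. -/

set_option autoImplicit false
set_option linter.style.haveILetI false

namespace CfsgLib.RuRankThree

open MulAction CfsgLib.RankThreeRecog
open scoped Classical

universe u v u' v'

variable {S : Type u} [Group S] {V : Type v} [MulAction S V] {a₀ b₀ c₀ : V}
variable {G : Type u'} [Group G] {W : Type v'} [MulAction G W] {a b c : W} {n k l : ℕ}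
variable (φ : stabilizer S a₀ ≃* stabilizer G a)

/-- The orbits of the point stabilisers correspond. -/
theorem map_orbit (ψ : V ≃ W) (hψ : ∀ (s : stabilizer S a₀) (x : V), ψ (s • x) = φ s • ψ x) {z : V} {z' : W}
    (hz : ψ z = z') (x : V) : ψ x ∈ orbit (stabilizer G a) z' ↔ x ∈ orbit (stabilizer S a₀) z := by
  constructor
  · rintro ⟨g, hg⟩
    refine ⟨φ.symm g, ψ.injective ?_⟩
    rw [hψ, MulEquiv.apply_symm_apply, hz]
    exact hg
  · rintro ⟨s, rfl⟩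
    exact ⟨φ s, by rw [hψ, hz]⟩

/-- The pullback of a set invariant under the stabiliser of two points is invariant. -/
theorem pre_invariant (ψ : V ≃ W) (hψ : ∀ (s : stabilizer S a₀) (x : V), ψ (s • x) = φ s • ψ x) {z : V} {z' : W}
    (hz : ψ z = z') {T : Set W} (hT : ∀ g : G, g • a = a → g • z' = z' → ∀ w ∈ T, g • w ∈ T) (s : S)
    (hs : s • a₀ = a₀) (hsz : s • z = z) : ∀ w ∈ ψ ⁻¹' T, s • w ∈ ψ ⁻¹' T := by
  intro w hw
  have h2 : φ ⟨s, hs⟩ • z' = z' := by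
    rw [← hz, ← hψ]
    exact congrArg ψ hsz
  rw [Set.mem_preimage, show s • w = (⟨s, hs⟩ : stabilizer S a₀) • w from rfl, hψ ⟨s, hs⟩ w]
  exact hT _ (φ ⟨s, hs⟩).2 h2 _ hw

/-- The bijection preserves edges, given the images of the three neighbourhoods. -/
theorem edge_iff_parts (hS : Sub S a₀ b₀ c₀ n k l) (hG : Sub G a b c n k l) (ψ : V ≃ W) (ha : ψ a₀ = a)
    (hb : ψ b₀ = b) (hc : ψ c₀ = c) (hψ : ∀ (s : stabilizer S a₀) (x : V), ψ (s • x) = φ s • ψ x)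
    (hA1 : ψ ⁻¹' nearNear G a b = nearNear S a₀ b₀) (hA2 : ψ ⁻¹' farNear G a b c = farNear S a₀ b₀ c₀)
    (hA3 : ψ ⁻¹' farFar G a b c = farFar S a₀ b₀ c₀) (x y : V) :
    Edge G a b (ψ x) (ψ y) ↔ Edge S a₀ b₀ x y := by
  have horb := fun {z : V} {z' : W} (hz : ψ z = z') => map_orbit φ ψ hψ hz
  have hmove : ∀ (s : stabilizer S a₀) (z w : V),
      (Edge G a b (ψ (s • z)) (ψ w) ↔ Edge G a b (ψ z) (ψ (s⁻¹ • w))) ∧
      (Edge S a₀ b₀ (s • z) w ↔ Edge S a₀ b₀ z (s⁻¹ • w)) := by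
    intro s z w
    refine ⟨?_, ?_⟩
    · rw [hψ, hψ, map_inv, ← edge_smul ((φ s : G)) (x := ψ z)]
      change Edge G a b ((φ s : G) • ψ z) (ψ w) ↔
        Edge G a b ((φ s : G) • ψ z) ((φ s : G) • ((φ s : G)⁻¹ • ψ w))
      rw [smul_inv_smul]
    · rw [← edge_smul (s : S) (x := z)]
      change Edge S a₀ b₀ ((s : S) • z) w ↔ Edge S a₀ b₀ ((s : S) • z) ((s : S) • ((s : S)⁻¹ • w))
      rw [smul_inv_smul]
  have atC : ∀ w, w ≠ a₀ → (Edge G a b (ψ c₀) (ψ w) ↔ Edge S a₀ b₀ c₀ w) := by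
    intro w hwa
    rw [hc]
    rcases cover hS w with e | e | e
    · exact absurd e hwa
    · exact ⟨fun he => (hA2.subset (show w ∈ ψ ⁻¹' farNear G a b c from ⟨(horb hb w).2 e, he⟩)).2,
        fun he => (hA2.superset (show w ∈ farNear S a₀ b₀ c₀ from ⟨e, he⟩)).2⟩
    · exact ⟨fun he => (hA3.subset (show w ∈ ψ ⁻¹' farFar G a b c from ⟨(horb hc w).2 e, he⟩)).2,
        fun he => (hA3.superset (show w ∈ farFar S a₀ b₀ c₀ from ⟨e, he⟩)).2⟩
  have base : ∀ w, Edge G a b (ψ a₀) (ψ w) ↔ Edge S a₀ b₀ a₀ w := fun w => by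
    rw [ha, edge_base, edge_base, horb hb]
  have symmG : ∀ {p q : W}, Edge G a b p q ↔ Edge G a b q p := ⟨edge_symm hG, edge_symm hG⟩
  have symmS : ∀ {p q : V}, Edge S a₀ b₀ p q ↔ Edge S a₀ b₀ q p := ⟨edge_symm hS, edge_symm hS⟩
  by_cases hx : x = a₀
  · rw [hx]; exact base y
  by_cases hy : y = a₀
  · rw [hy, symmG, symmS]; exact base x
  rcases cover hS x with e | ⟨s, rfl⟩ | ⟨s, rfl⟩
  · exact absurd e hx
  · rcases cover hS y with e | e | ⟨t, rfl⟩
    · exact absurd e hy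
    · rw [(hmove s b₀ y).1, (hmove s b₀ y).2, hb]
      have e' : s⁻¹ • y ∈ orbit (stabilizer S a₀) b₀ := by
        obtain ⟨t, rfl⟩ := e
        exact ⟨s⁻¹ * t, mul_smul _ _ _⟩
      exact ⟨fun he => (hA1.subset (show s⁻¹ • y ∈ ψ ⁻¹' nearNear G a b from ⟨(horb hb _).2 e', he⟩)).2,
        fun he => (hA1.superset (show s⁻¹ • y ∈ nearNear S a₀ b₀ from ⟨e', he⟩)).2⟩
    · rw [symmG, symmS, (hmove t c₀ _).1, (hmove t c₀ _).2]
      refine atC _ fun e => hx ?_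
      rw [inv_smul_eq_iff] at e
      exact e.trans t.2
  · rw [(hmove s c₀ y).1, (hmove s c₀ y).2]
    refine atC _ fun e => hy ?_
    rw [inv_smul_eq_iff] at e
    exact e.trans s.2

end CfsgLib.RuRankThree
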