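import Cfsg.Agent.Lib.RuRankThree.ForcedData
import Cfsg.Agent.Lib.RuPerm.Group
import Cfsg.Agent.Lib.RuPerm.Label

/-! Tables for the orbits of the stabilisers of two lines. -/

set_option autoImplicit false

namespace CfsgLib.RuRankThree

open CfsgLib.SporRecognition.CosetCert CfsgLib.RuPerm

/-- A first word fixing the lines `0` and `1`, applied from the left. -/
def cWordA : List BTree := [RuPerm.Data.n3i, RuPerm.Data.n2i, RuPerm.Data.n3i, RuPerm.Data.n2]

/-- A second word fixing the lines `0` and `1`. -/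
def cWordB : List BTree := [RuPerm.Data.n6, RuPerm.Data.n6, RuPerm.Data.n3, RuPerm.Data.n2i, RuPerm.Data.n3i,
  RuPerm.Data.n6, RuPerm.Data.n6, RuPerm.Data.n6]

/-- The tables of the two words. -/
noncomputable def cTabs : List (ℕ → ℕ) :=
  [trace (cWordA.map fun t => tab t 12), trace (cWordB.map fun t => tab t 12)]

/-- The roots of the orbits of the stabiliser of `0` and `1`. -/
noncomputable def cRoot (l : ℕ) : ℕ := [0, 1, 2, 4, 5, 44, 60, 2305, 2311].getD l 0

/-- The sizes of these orbits. -/
def cSizes : List ℕ := [1, 1, 78, 650, 975, 300, 300, 975, 780]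

/-- The suborbit of each orbit. -/
def cUp : List ℕ := [0, 1, 1, 1, 1, 1, 1, 2, 2]

/-- The orbit of a line. -/
noncomputable def cLabel (u : ℕ) : ℕ := tab Data.cLab 4 u

/-- Tree check for these orbits. -/
noncomputable def cTreeStep (u : ℕ) : Bool :=
  Nat.blt (cLabel u) 9 && Nat.beq (pLabel u) (cUp.getD (cLabel u) 0) &&
    treeStep cTabs (fun u => u) cLabel cRoot (tab Data.cRk 8) (tab Data.cVia 2) (tab Data.cSrc 12) 4060 u

/-- The orbit of a line under the stabiliser of `0` and `2305`, the other lines having label 5. -/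
noncomputable def bLabel (u : ℕ) : ℕ :=
  bif Nat.beq (pLabel u) 2 then kLabel (tab RuPerm.Data.oIdx 11 u) else 5

/-- The index of a line of the large suborbit, and the invariant of the pair with `0`. -/
noncomputable def bStep (u : ℕ) : Bool :=
  (bif Nat.beq (pLabel u) 2 then Nat.blt (tab RuPerm.Data.oIdx 11 u) 1755 &&
    Nat.beq (oLine (tab RuPerm.Data.oIdx 11 u)) u else true) &&
  ((Nat.beq (lz 0 u) 4) == (Nat.beq (pLabel u) 1)) && ((Nat.beq (pLabel u) 0) == (Nat.beq u 0))

end CfsgLib.RuRankThree
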