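import Cfsg.Agent.Lib.RuRankThree.IndexOrbits

/-! The subgroups of index 2304 of the line stabiliser are the stabilisers of the lines of the middle suborbit. -/

set_option autoImplicit false
set_option Elab.async false
set_option maxRecDepth 20000

namespace CfsgLib.RuRankThree

open CfsgLib.SporRecognition.CosetCert CfsgLib.RuPerm

theorem sub_zero {g : LPerm} (hg : g ∈ sub) : g 0 = (0 : Fin 4060) :=
  subIn_le (Subgroup.mem_subgroupOf.2 hg : (⟨g, sub_le hg⟩ : grp) ∈ subIn)

/-- Containing the element of order thirteen. -/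
theorem oneLine_of_seed {L : Subgroup LPerm} (hL : L ≤ sub) (hcard : Nat.card L = 7800 ∨ Nat.card L = 15600)
    (hx : seedC ∈ L) : ∃ c, OneLine L c := by
  obtain ⟨t, ht, hni⟩ := exists_not_inverting hcard (⟨seedC, hx⟩ : L)
    (by rw [Subgroup.orderOf_mk]; exact orderOf_seedC)
  have ht2 : (t : LPerm) * t = 1 := by
    have := pow_orderOf_eq_one t
    rw [ht, pow_two] at this
    exact congrArg Subtype.val this
  have hne : (t : LPerm) ≠ 1 := fun e => by
    rw [show t = 1 from Subtype.ext e, orderOf_one] at ht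
    exact absurd ht (by norm_num)
  obtain ⟨m, hm, hm0, hmN, r, hr, hrt⟩ := exists_rep (hL t.2) hne ht2
  have hmx : m⁻¹ * seedC * m ∈ Subgroup.zpowers seedC := by
    have h := (Subgroup.mem_normalizer_iff.1 (inv_mem hmN) seedC).1 (Subgroup.mem_zpowers seedC)
    rwa [inv_inv] at h
  set L' := L.map (MulAut.conj m).toMonoidHom with hL'
  have hcard' : Nat.card L' = 7800 ∨ Nat.card L' = 15600 := by
    rw [Subgroup.card_map_of_injective (MulAut.conj m).injective]; exact hcard
  have hx' : seedC ∈ L' := ⟨m⁻¹ * seedC * m, (Subgroup.zpowers_le.2 hx) hmx, by simp [mul_assoc]⟩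
  have hT : repPerm r ∈ L' := ⟨t, t.2, hrt.symm⟩
  have hL's : L' ≤ sub := by
    rintro _ ⟨s, hs, rfl⟩
    exact conj_sub hm hm0 (hL hs)
  have hT2 : repPerm r * repPerm r = 1 := by
    rw [hrt]
    calc m * (t : LPerm) * m⁻¹ * (m * t * m⁻¹) = m * ((t : LPerm) * t) * m⁻¹ := by group
      _ = 1 := by rw [ht2]; group
  have hne' : repPerm r ≠ 1 := fun e => hne (conj_eq_one_iff.1 (hrt.symm.trans e))
  have hni' : repPerm r * seedC * (repPerm r)⁻¹ ≠ seedC⁻¹ := by
    intro e
    refine hni (Subtype.ext ?_)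
    -- move the relation back
    obtain ⟨k, hk⟩ := Subgroup.mem_zpowers_iff.1 hmx
    have hz : (t : LPerm) * (m⁻¹ * seedC * m) * (t : LPerm)⁻¹ = (m⁻¹ * seedC * m)⁻¹ := by
      rw [hrt] at e
      calc (t : LPerm) * (m⁻¹ * seedC * m) * (t : LPerm)⁻¹
          = m⁻¹ * (m * t * m⁻¹ * seedC * (m * t * m⁻¹)⁻¹) * m := by group
        _ = m⁻¹ * seedC⁻¹ * m := by rw [e]
        _ = _ := by group
    obtain ⟨i, hi⟩ : seedC ∈ Subgroup.zpowers (m⁻¹ * seedC * m) := by
      have hle : Subgroup.zpowers (m⁻¹ * seedC * m) ≤ Subgroup.zpowers seedC := Subgroup.zpowers_le.2 hmx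
      have ho : orderOf (m⁻¹ * seedC * m) = 13 := by
        rw [show m⁻¹ * seedC * m = MulAut.conj m⁻¹ seedC by simp, MulEquiv.orderOf_eq (MulAut.conj m⁻¹),
          orderOf_seedC]
      rw [Subgroup.eq_of_le_of_card_ge hle (by rw [Nat.card_zpowers, Nat.card_zpowers, ho, orderOf_seedC])]
      exact Subgroup.mem_zpowers _
    show (t : LPerm) * seedC * (t : LPerm)⁻¹ = seedC⁻¹
    rw [show seedC = (m⁻¹ * seedC * m) ^ i from hi.symm, ← conj_zpow, hz, inv_zpow]
  obtain ⟨c, hc⟩ := oneLine_of_rep hL's hcard' hx' hr hT hne' hT2 hni'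
  exact ⟨_, oneLine_conj hm hm0 hc⟩

/-- Every subgroup of the seed group of these orders fixes exactly one line of the middle suborbit. -/
theorem oneLine_of_card {L : Subgroup LPerm} (hL : L ≤ sub)
    (hcard : Nat.card L = 7800 ∨ Nat.card L = 15600) : ∃ c, OneLine L c := by
  have : Fact (Nat.Prime 13) := ⟨by norm_num⟩
  have h13 : 13 ∣ Nat.card L := by rcases hcard with h | h <;> rw [h] <;> norm_num
  obtain ⟨u, hu⟩ := exists_prime_orderOf_dvd_card' 13 h13
  let u' : sub := ⟨u, hL u.2⟩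
  let x' : sub := ⟨seedC, seedC_sub⟩
  have hu' : orderOf u' = 13 := by rw [Subgroup.orderOf_mk, Subgroup.orderOf_coe]; exact hu
  have hx' : orderOf x' = 13 := by rw [Subgroup.orderOf_mk]; exact orderOf_seedC
  have mk : ∀ z : sub, orderOf z = 13 → ∃ S : Sylow 13 sub, S.toSubgroup = Subgroup.zpowers z := by
    intro z hz
    have hcz : Nat.card (Subgroup.zpowers z) = 13 ^ 1 := by rw [Nat.card_zpowers, hz, pow_one]
    have hidx : ¬ 13 ∣ (Subgroup.zpowers z).index := by
      have h := (Subgroup.zpowers z).card_mul_index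
      rw [hcz, pow_one, card_sub] at h
      rintro ⟨q, hq⟩
      rw [hq] at h
      omega
    exact ⟨(IsPGroup.of_card hcz).toSylow hidx, rfl⟩
  obtain ⟨Su, hSu⟩ := mk u' hu'
  obtain ⟨Sx, hSx⟩ := mk x' hx'
  obtain ⟨g, hg⟩ := MulAction.exists_smul_eq sub Su Sx
  have hgx : Su.toSubgroup.map (MulAut.conj g).toMonoidHom = Sx.toSubgroup := congrArg Sylow.toSubgroup hg
  rw [hSu, hSx, MonoidHom.map_zpowers] at hgx
  obtain ⟨i, hi⟩ : x' ∈ Subgroup.zpowers ((MulAut.conj g).toMonoidHom u') := by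
    rw [hgx]; exact Subgroup.mem_zpowers _
  set L' := L.map (MulAut.conj (g : LPerm)).toMonoidHom
  have hx : seedC ∈ L' := by
    refine ⟨(u : LPerm) ^ i, zpow_mem u.2 i, ?_⟩
    have := congrArg Subtype.val hi
    simpa [x', u'] using this
  have hL' : L' ≤ sub := by
    rintro _ ⟨s, hs, rfl⟩
    exact mul_mem (mul_mem g.2 (hL hs)) (inv_mem g.2)
  obtain ⟨c, hc⟩ := oneLine_of_seed hL'
    (by rw [Subgroup.card_map_of_injective (MulAut.conj (g : LPerm)).injective]; exact hcard) hx
  exact ⟨_, oneLine_conj (sub_le g.2) (sub_zero g.2) hc⟩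

/-- The lines of a label form one orbit of the stabiliser. -/
theorem lab_orbit {u v : Fin 4060} (h : pLabel u = pLabel v) : v ∈ MulAction.orbit stab0 u := by
  have htree : ∀ i < 4060, pLabel i < 3 ∧
      treeStep sTabs (fun u => u) pLabel pRoot (tab RuPerm.Data.pRk 8) (tab RuPerm.Data.pVia 2)
        (tab RuPerm.Data.pSrc 12) 4060 i = true := by
    intro i hi
    have h := allBelow_spec pTree_ok i hi
    simp only [pTreeStep, Bool.and_eq_true, Nat.blt_eq] at h
    exact h
  obtain ⟨g, hg, r, hr, hgr⟩ := reach (G := sub) (fun _ h => sub_real h) (fun u hu => hu)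
    (fun u hu => (htree u hu).2) u u.2
  obtain ⟨g', hg', r', hr', hgr'⟩ := reach (G := sub) (fun _ h => sub_real h) (fun u hu => hu)
    (fun u hu => (htree u hu).2) v v.2
  obtain rfl : r = r' := Fin.ext (by rw [hr, hr', h])
  have hmem : g' * g⁻¹ ∈ sub := mul_mem hg' (inv_mem hg)
  refine ⟨⟨⟨g' * g⁻¹, sub_le hmem⟩, subIn_le (Subgroup.mem_subgroupOf.2 hmem)⟩, ?_⟩
  show (g' * g⁻¹) u = v
  rw [Equiv.Perm.mul_apply, show u = g r from Fin.ext hgr.symm, Equiv.Perm.inv_def, Equiv.symm_apply_apply]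
  exact Fin.ext hgr'

/-- The orbit of a line is its label class. -/
theorem orbit_eq_lab (u : Fin 4060) : MulAction.orbit stab0 u = {v : Fin 4060 | pLabel v = pLabel u} := by
  ext v
  refine ⟨?_, fun h => lab_orbit h.symm⟩
  rintro ⟨g, rfl⟩
  exact label_keep (g : grp).2 g.2 u

/-- The index of the stabiliser of a line. -/
theorem index_stabilizer_lab (u : Fin 4060) (hu : pLabel u < 3) :
    (MulAction.stabilizer stab0 u).index = pSizes.getD (pLabel u) 0 := by
  rw [MulAction.index_stabilizer, orbit_eq_lab, ← pCount_ok ⟨_, hu⟩, ← ncard_lab (by norm_num)]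

/-- The subgroups of index 2304. -/
theorem stab_of_index (H : Subgroup stab0) (h : H.index = 2304) :
    ∃ c : Fin 4060, pLabel c = 1 ∧ H = MulAction.stabilizer stab0 c := by
  have hH : Nat.card H = 15600 := by
    have := H.card_mul_index
    rw [h, card_grp_and_stab.2] at this
    omega
  set S := subIn.subgroupOf stab0
  have hS : S.index = 2 := by
    have := S.card_mul_index
    rw [subIn_equiv_simple.2, card_grp_and_stab.2] at this
    omega
  have := Subgroup.normal_of_index_eq_two hS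
  let emb : stab0 →* LPerm := grp.subtype.comp stab0.subtype
  have hemb : Function.Injective emb := grp.subtype_injective.comp stab0.subtype_injective
  set L := (H ⊓ S).map emb
  have hLsub : L ≤ sub := by
    rintro _ ⟨s, hs, rfl⟩
    exact Subgroup.mem_subgroupOf.1 (Subgroup.mem_subgroupOf.1 hs.2)
  have hcard : Nat.card L = 7800 ∨ Nat.card L = 15600 := by
    rw [Subgroup.card_map_of_injective hemb]
    have h1 := (S.subgroupOf H).card_mul_index
    have h2 : Nat.card (S.subgroupOf H) = Nat.card ↥(H ⊓ S) := by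
      rw [← Subgroup.inf_subgroupOf_left, Nat.card_congr (Subgroup.subgroupOfEquivOfLe inf_le_left).toEquiv]
    rw [h2, hH] at h1
    have h3 : (S.subgroupOf H).index ∣ 2 := hS ▸ Subgroup.relIndex_dvd_index_of_normal S H
    rcases (Nat.dvd_prime Nat.prime_two).1 h3 with e | e <;> rw [e] at h1 <;> omega
  obtain ⟨c, hc1, hfix, huniq⟩ := oneLine_of_card hLsub hcard
  refine ⟨c, hc1, ?_⟩
  have hle : H ≤ MulAction.stabilizer stab0 c := by
    intro g hg
    refine huniq (emb g c) ?_ ?_
    · exact (label_keep (g : grp).2 g.2 c).trans hc1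
    · rintro _ ⟨s, hs, rfl⟩
      have hconj : g⁻¹ * s * g ∈ H ⊓ S := Subgroup.mem_inf.2 ⟨H.mul_mem (H.mul_mem (H.inv_mem hg) hs.1) hg, by
        simpa using Subgroup.Normal.conj_mem this s hs.2 g⁻¹⟩
      have h1 := hfix _ ⟨_, hconj, rfl⟩
      calc emb s (emb g c) = (emb g * emb (g⁻¹ * s * g)) c := by
            rw [← map_mul, show g * (g⁻¹ * s * g) = s * g by group, map_mul, Equiv.Perm.mul_apply]
        _ = emb g c := by rw [Equiv.Perm.mul_apply, h1]
  refine Subgroup.eq_of_le_of_card_ge hle ?_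
  have hi := index_stabilizer_lab c (by rw [hc1]; norm_num)
  rw [hc1] at hi
  have := (MulAction.stabilizer stab0 c).card_mul_index
  rw [hi, card_grp_and_stab.2, show pSizes.getD 1 0 = 2304 from rfl] at this
  omega

end CfsgLib.RuRankThree
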