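import Cfsg.Agent.Lib.RuRankThree.IndexDefs

/-! Kernel checks, first part. -/

set_option autoImplicit false
set_option Elab.async false
set_option maxRecDepth 20000

namespace CfsgLib.RuRankThree

open CfsgLib.SporRecognition.CosetCert CfsgLib.RuPerm

theorem yWord_ok : allBelow 12 4060 (wordTabStep Data.yW Data.yT) = true := by decide +kernel

theorem zAWord_ok : allBelow 12 4060 (wordTabStep Data.zAW Data.zA) = true := by decide +kernel

theorem zBWord_ok : allBelow 12 4060 (wordTabStep Data.zBW Data.zB) = true := by decide +kernel

theorem fixX_ok : allBelow 12 4060 fixX = true := by decide +kernel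

theorem labKeep_ok : allBelow 12 4060 labKeep = true := by decide +kernel

/-- The element of the normaliser acts on the element of order thirteen as a power. -/
theorem norm_ok : (allSix fun f => Nat.beq (yApp (xApp (xApp f))) (xApp (yApp f))) = true := by decide +kernel

theorem jStep_ok : allBelow 11 1755 jStep = true := by decide +kernel

end CfsgLib.RuRankThree
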