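import Cfsg.Agent.Lib.RuRankThree.IndexDefs

/-! Kernel checks, second part. -/

set_option autoImplicit false
set_option Elab.async false
set_option maxRecDepth 20000

namespace CfsgLib.RuRankThree

open CfsgLib.SporRecognition.CosetCert CfsgLib.RuPerm

private theorem allBelow_14' {n : ℕ} {f : ℕ → Bool} (hn : Nat.ble n (Nat.pow 2 14) = true)
    (h0 : allPow n f 12 0 = true) (h1 : allPow n f 12 4096 = true) (h2 : allPow n f 12 8192 = true)
    (h3 : allPow n f 12 12288 = true) : allBelow 14 n f = true := by
  have e : allPow n f 14 0 = true := allPow_append (allPow_append h0 h1) (allPow_append h2 h3)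
  rw [allBelow, hn, e]; rfl

theorem invList_ok : allBelow 14 10240 invListStep = true :=
  allBelow_14' (by decide +kernel) (by decide +kernel) (by decide +kernel) (by decide +kernel) (by decide +kernel)

end CfsgLib.RuRankThree
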