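import Cfsg.Agent.Lib.RuRankThree.IndexDefs

/-! Kernel checks of the translations. -/

set_option autoImplicit false
set_option Elab.async false
set_option maxRecDepth 20000

namespace CfsgLib.RuRankThree

theorem mapRow_0 : mapRow 0 = true := by decide +kernel

theorem mapRow_1 : mapRow 1 = true := by decide +kernel

theorem mapRow_2 : mapRow 2 = true := by decide +kernel

theorem mapRow_3 : mapRow 3 = true := by decide +kernel

theorem mapRow_4 : mapRow 4 = true := by decide +kernel

theorem mapRow_5 : mapRow 5 = true := by decide +kernel

theorem mapRow_6 : mapRow 6 = true := by decide +kernel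

end CfsgLib.RuRankThree
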