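import Cfsg.Agent.Lib.RuRankThree.IndexDefs

/-! Kernel checks of the translations. -/

set_option autoImplicit false
set_option Elab.async false
set_option maxRecDepth 20000

namespace CfsgLib.RuRankThree

theorem mapRow_7 : mapRow 7 = true := by decide +kernel

theorem mapRow_8 : mapRow 8 = true := by decide +kernel

theorem mapRow_9 : mapRow 9 = true := by decide +kernel

theorem mapRow_10 : mapRow 10 = true := by decide +kernel

theorem mapRow_11 : mapRow 11 = true := by decide +kernel

theorem mapRow_12 : mapRow 12 = true := by decide +kernel

theorem mapRow_13 : mapRow 13 = true := by decide +kernel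

end CfsgLib.RuRankThree
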