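import Cfsg.Agent.Lib.RuRankThree.IndexDefs

/-! Kernel checks of the representatives. -/

set_option autoImplicit false
set_option Elab.async false
set_option maxRecDepth 20000

namespace CfsgLib.RuRankThree

open CfsgLib.SporRecognition.CosetCert

theorem case_0 : ∀ i : Fin 13, caseStep (0 + i.1) = true := by decide +kernel

theorem case_13 : ∀ i : Fin 13, caseStep (13 + i.1) = true := by decide +kernel

theorem case_26 : ∀ i : Fin 13, caseStep (26 + i.1) = true := by decide +kernel

theorem case_39 : ∀ i : Fin 13, caseStep (39 + i.1) = true := by decide +kernel

theorem case_52 : ∀ i : Fin 13, caseStep (52 + i.1) = true := by decide +kernel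

theorem case_65 : ∀ i : Fin 13, caseStep (65 + i.1) = true := by decide +kernel

theorem case_78 : ∀ i : Fin 13, caseStep (78 + i.1) = true := by decide +kernel

theorem case_91 : ∀ i : Fin 13, caseStep (91 + i.1) = true := by decide +kernel

end CfsgLib.RuRankThree
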