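import Cfsg.Agent.Lib.RuPerm.Group
import Cfsg.Agent.Lib.RuRankThree.IndexData

/-! Definitions of the checks for the subgroups of index 2304 in the line stabiliser of the rank three group on
4060 lines. -/

set_option autoImplicit false
set_option Elab.async false

namespace CfsgLib.RuRankThree

open CfsgLib.SporRecognition.CosetCert CfsgLib.RuPerm

/-- Entry of a list of numbers. -/
noncomputable def nth (l : List ℕ) : ℕ → ℕ :=
  List.rec (motive := fun _ => ℕ → ℕ) (fun _ => 0) (fun a _ ih i => bif Nat.beq i 0 then a else ih (Nat.sub i 1)) l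

/-- The named tables. -/
noncomputable def nodeTab (g : ℕ) : ℕ → ℕ :=
  sel [tab RuPerm.Data.n2 12, tab RuPerm.Data.n3 12, tab RuPerm.Data.n4 12, tab RuPerm.Data.n5 12,
    tab RuPerm.Data.n6 12] (Nat.sub g 2)

/-- The tree is the value table of the word. -/
noncomputable def wordTabStep (w : List ℕ) (T : BTree) (i : ℕ) : Bool :=
  Nat.beq (trace (w.map nodeTab) i) (tab T 12 i)

/-- Apply `f` along the non-zero digits (of width `w`) of a code, the lowest first. -/
noncomputable def runCode (f : ℕ → ℕ → ℕ) (w : ℕ) (fuel : ℕ) : ℕ → ℕ → ℕ :=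
  Nat.rec (fun _ u => u)
    (fun _ ih c u => bif Nat.beq (field c w 0) 0 then u else
      ih (Nat.shiftRight c w) (f (Nat.sub (field c w 0) 1) u)) fuel

/-- The letters of the representative involutions. -/
noncomputable def letter (g : ℕ) : ℕ → ℕ :=
  sel [tab RuPerm.Data.n2 12, tab RuPerm.Data.n2i 12, tab RuPerm.Data.n3 12, tab RuPerm.Data.n3i 12,
    tab Data.zA 12, tab Data.zB 12] g

/-- A representative involution. -/
noncomputable def repApp (r u : ℕ) : ℕ := runCode letter 4 16 (nth Data.repWord r) u

/-- The element of order thirteen. -/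
noncomputable def xApp : ℕ → ℕ := tab RuPerm.Data.n2 12

/-- An element normalising it. -/
noncomputable def yApp : ℕ → ℕ := tab Data.yT 12

/-- An element of the normaliser. -/
noncomputable def mApp (b a u : ℕ) : ℕ := iter yApp b (iter xApp a u)

/-- Conjunction over the first six lines. -/
noncomputable def allSix (f : ℕ → Bool) : Bool := Nat.rec true (fun j r => r && f j) 6

/-- Product of keys: the word of the first one applied to the second one. -/
noncomputable def mulIdx (fuel : ℕ) : ℕ → ℕ → ℕ :=
  Nat.rec (fun _ m => m)
    (fun _ ih k m => bif Nat.beq k 0 then m else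
      bif Nat.beq (tab8 RuPerm.Data.kGen 2 k) 0 then tab8 RuPerm.Data.kTab0 14 (ih (tab8 RuPerm.Data.kPar 14 k) m)
      else tab8 RuPerm.Data.kTab1 14 (ih (tab8 RuPerm.Data.kPar 14 k) m)) fuel

/-- The keys that may be involutions are listed. -/
noncomputable def invListStep (k : ℕ) : Bool :=
  Nat.beq k 0 || !(Nat.beq (mulIdx 17 k k) 0) ||
    (Nat.blt (tab8 Data.invIx 9 k) 271 && Nat.beq (field Data.invList 14 (tab8 Data.invIx 9 k)) k)

/-- The chosen lines of the orbit of size 1755. -/
noncomputable def rPt (q : ℕ) : ℕ := field Data.rPts 11 q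

/-- Every line of that orbit is moved to a chosen one. -/
noncomputable def jStep (j : ℕ) : Bool :=
  Nat.blt (Nat.shiftRight (tab Data.jCert 12 j) 8) 14 &&
    Nat.blt (rPt (Nat.shiftRight (tab Data.jCert 12 j) 8)) 1755 &&
    Nat.beq (mApp (field (tab Data.jCert 12 j) 4 1) (field (tab Data.jCert 12 j) 4 0) (oLine j))
      (oLine (rPt (Nat.shiftRight (tab Data.jCert 12 j) 8)))

/-- The recorded translation of a case. -/
noncomputable def mapVal (q s : ℕ) : ℕ := tab Data.mapT 15 (Nat.add (Nat.mul 271 q) s)

/-- Every involution at a chosen line is conjugate to a representative. -/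
noncomputable def mapStep (q s : ℕ) : Bool :=
  Nat.blt (Nat.shiftRight (mapVal q s) 8) 104 &&
    allSix fun f =>
      Nat.beq
        (repApp (Nat.shiftRight (mapVal q s) 8)
          (mApp (field (mapVal q s) 4 1) (field (mapVal q s) 4 0) (tApp 20 (rPt q) (baseAt f))))
        (mApp (field (mapVal q s) 4 1) (field (mapVal q s) 4 0)
          (tApp 20 (rPt q) (keyAt (field Data.invList 14 s) f)))

/-- The translations of one chosen line. -/
noncomputable def mapRow (q : ℕ) : Bool := allBelow 9 271 (mapStep q)

/-- A syllable: zero for the involution, `a` for the power `a` of the element of order thirteen. -/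
noncomputable def syl (r a u : ℕ) : ℕ := bif Nat.beq a 0 then repApp r u else iter xApp a u

/-- The representative inverts the element of order thirteen. -/
noncomputable def invStepX (r : ℕ) : Bool :=
  allSix fun f => Nat.beq (repApp r (xApp (repApp r (xApp f)))) f

/-- The representative and the element of order thirteen give the second seed. -/
noncomputable def wordKill (r w : ℕ) : Bool :=
  allSix fun f => Nat.beq (runCode (syl r) 5 16 (nth Data.killWord w) f) (tab RuPerm.Data.n3 12 f)

/-- A point of a recorded orbit. -/
noncomputable def oAt (o i : ℕ) : ℕ := field (nth Data.orbPts o) 12 i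

/-- The bitmask of the first points of a recorded orbit. -/
noncomputable def oMask (o : ℕ) : ℕ → ℕ :=
  Nat.rec 0 (fun i M => Nat.lor M (Nat.pow 2 (oAt o i)))

/-- The points of a recorded orbit are distinct. -/
noncomputable def oFresh (o : ℕ) (n : ℕ) : Bool × ℕ :=
  Nat.rec (true, 0)
    (fun i p => (p.1 && Nat.beq (Nat.land (Nat.shiftRight p.2 (oAt o i)) 1) 0, Nat.lor p.2 (Nat.pow 2 (oAt o i)))) n

/-- A point lies in the mask. -/
noncomputable def inMask (M p : ℕ) : Bool := Nat.beq (Nat.land (Nat.shiftRight M p) 1) 1

/-- A recorded point hangs from an earlier one, and the orbit is closed at it. -/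
noncomputable def oStep (r o M i : ℕ) : Bool :=
  (Nat.beq i 0 ||
    (Nat.blt (Nat.shiftRight (field (nth Data.orbPV o) 12 i) 1) i &&
      Nat.beq
        (bif Nat.beq (Nat.land (field (nth Data.orbPV o) 12 i) 1) 0 then
          xApp (oAt o (Nat.shiftRight (field (nth Data.orbPV o) 12 i) 1))
        else repApp r (oAt o (Nat.shiftRight (field (nth Data.orbPV o) 12 i) 1)))
        (oAt o i))) &&
    inMask M (xApp (oAt o i)) && inMask M (repApp r (oAt o i))

/-- A recorded orbit is right. -/
noncomputable def orbOK (r o : ℕ) : Bool :=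
  Nat.blt 0 (nth Data.orbLen o) && Nat.blt (oAt o 0) 4060 &&
    (oFresh o (nth Data.orbLen o)).1 &&
    allBelow 10 (nth Data.orbLen o) (oStep r o (oMask o (nth Data.orbLen o)))

/-- The three lines of the middle suborbit fixed by the element of order thirteen. -/
noncomputable def xFixed : List ℕ := [624, 734, 856]

/-- A representative fixing one of the three lines moves the other two off them. -/
noncomputable def oneFix (r c : ℕ) : Bool :=
  xFixed.any (Nat.beq c) && Nat.beq (repApp r c) c &&
    xFixed.all fun d => Nat.beq d c || !(xFixed.any (Nat.beq (repApp r d)))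

/-- The verdict on one representative. -/
noncomputable def caseStep (r : ℕ) : Bool :=
  bif Nat.beq (field (tab Data.repTab 24 r) 2 0) 0 then invStepX r
  else bif Nat.beq (field (tab Data.repTab 24 r) 2 0) 1 then
    wordKill r (Nat.land (Nat.shiftRight (tab Data.repTab 24 r) 2) 255)
  else bif Nat.beq (field (tab Data.repTab 24 r) 2 0) 2 then
    Nat.beq (nth Data.orbLen (Nat.land (Nat.shiftRight (tab Data.repTab 24 r) 2) 255)) 351 &&
      orbOK r (Nat.land (Nat.shiftRight (tab Data.repTab 24 r) 2) 255)
  else
    Nat.beq (nth Data.orbLen (Nat.land (Nat.shiftRight (tab Data.repTab 24 r) 2) 255)) 975 &&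
      orbOK r (Nat.land (Nat.shiftRight (tab Data.repTab 24 r) 2) 255) &&
      oneFix r (Nat.shiftRight (tab Data.repTab 24 r) 10)

/-- The element of order thirteen fixes only three lines of the middle suborbit. -/
noncomputable def fixX (i : ℕ) : Bool :=
  !(Nat.beq (xApp i) i) || !(Nat.beq (pLabel i) 1) || xFixed.any (Nat.beq i)

/-- The seeds and the extra element keep the labels. -/
noncomputable def labKeep (i : ℕ) : Bool :=
  Nat.beq (pLabel (tab RuPerm.Data.n2 12 i)) (pLabel i) && Nat.beq (pLabel (tab RuPerm.Data.n3 12 i)) (pLabel i) &&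
    Nat.beq (pLabel (tab RuPerm.Data.n6 12 i)) (pLabel i)

end CfsgLib.RuRankThree
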