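import Cfsg.Agent.Lib.RuRankThree.IndexChecksA
import Cfsg.Agent.Lib.RuRankThree.IndexChecksB

/-! The named elements, the action of the line stabiliser on the labels, and the involutions of the seed group. -/

set_option autoImplicit false
set_option Elab.async false
set_option maxRecDepth 20000

namespace CfsgLib.RuRankThree

open CfsgLib.SporRecognition.CosetCert CfsgLib.RuPerm

/-- Permutations of the lines. -/
abbrev LPerm : Type := Equiv.Perm (Fin 4060)

variable {H : Subgroup LPerm}

theorem real_id : Real H (fun u => u) := ⟨1, one_mem _, fun _ => rfl⟩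

theorem real_comp {s t : ℕ → ℕ} (hs : Real H s) (ht : Real H t) : Real H fun u => s (t u) := by
  obtain ⟨g, hg, hgv⟩ := hs
  obtain ⟨k, hk, hkv⟩ := ht
  exact ⟨g * k, mul_mem hg hk, fun i => by rw [Equiv.Perm.mul_apply, hgv, hkv]⟩

theorem real_sel : ∀ {ts : List (ℕ → ℕ)}, (∀ t ∈ ts, Real H t) → ∀ j, Real H (sel ts j) := by
  intro ts h j
  rcases hj : ts[j]? with _ | t
  · have e : sel ts j = fun u => u := funext fun u => by rw [sel_eq, hj]; rfl
    rw [e]; exact real_id
  · have e : sel ts j = t := funext fun u => by rw [sel_eq, hj]; rfl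
    rw [e]; exact h t (List.mem_of_getElem? hj)

theorem runCode_succ (f : ℕ → ℕ → ℕ) (w n c u : ℕ) : runCode f w (n + 1) c u =
    bif Nat.beq (field c w 0) 0 then u else runCode f w n (Nat.shiftRight c w) (f (Nat.sub (field c w 0) 1) u) :=
  rfl

theorem real_runCode {f : ℕ → ℕ → ℕ} (hf : ∀ g, Real H (f g)) (w : ℕ) :
    ∀ (n c : ℕ), Real H (runCode f w n c)
  | 0, _ => real_id
  | n + 1, c => by
    rcases hb : Nat.beq (field c w 0) 0 with _ | _
    · have e : runCode f w (n + 1) c = fun u => runCode f w n (Nat.shiftRight c w) (f (Nat.sub (field c w 0) 1) u) :=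
        funext fun u => by rw [runCode_succ, hb, cond_false]
      rw [e]; exact real_comp (real_runCode hf w n _) (hf _)
    · have e : runCode f w (n + 1) c = fun u => u := funext fun u => by rw [runCode_succ, hb, cond_true]
      rw [e]; exact real_id

theorem iter_pow {g : LPerm} {t : ℕ → ℕ} (h : ∀ i : Fin 4060, (g i : ℕ) = t i) :
    ∀ (m : ℕ) (i : Fin 4060), ((g ^ m) i : ℕ) = iter t m i
  | 0, i => by simp
  | m + 1, i => by rw [pow_succ, Equiv.Perm.mul_apply, iter_pow h m, h, iter_succ]

theorem iter_succ' (t : ℕ → ℕ) : ∀ m u, iter t (m + 1) u = t (iter t m u)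
  | 0, _ => rfl
  | m + 1, u => by rw [iter_succ, iter_succ' t m, ← iter_succ]

/-- The letters of the words of the new tables. -/
theorem real_nodeTab (g : ℕ) : Real grp (nodeTab g) := by
  refine real_sel (H := grp) ?_ _
  have h4 : Real grp (tab RuPerm.Data.n4 12) := ⟨genE, sub_le genE_mem, genE_val⟩
  have h5 : Real grp (tab RuPerm.Data.n5 12) := ⟨genF, sub_le genF_mem, genF_val⟩
  simp only [List.forall_mem_cons, List.not_mem_nil, IsEmpty.forall_iff, implies_true, and_true]
  exact ⟨real_n2, real_n3, h4, h5, real_n6⟩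

theorem real_wordTab {w : List ℕ} {T : BTree} (hw : allBelow 12 4060 (wordTabStep w T) = true)
    (h : ∀ g ∈ w, Real H (nodeTab g)) : Real H (tab T 12) := by
  obtain ⟨g, hg, hgv⟩ := real_trace (ts := w.map nodeTab) (G := H) fun t ht => by
    obtain ⟨s, hs, rfl⟩ := List.mem_map.1 ht
    exact h s hs
  exact ⟨g, hg, fun i => by rw [hgv, Nat.eq_of_beq_eq_true (allBelow_spec hw i i.2)]⟩

theorem real_kWord {w : List ℕ} {T : BTree} (hw : allBelow 12 4060 (wordTabStep w T) = true)
    (h : (w.all fun g => Nat.beq g 4 || Nat.beq g 5) = true) : Real sub (tab T 12) := by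
  refine real_wordTab hw fun g hg => ?_
  have := List.all_eq_true.1 h g hg
  simp only [Bool.or_eq_true, Nat.beq_eq] at this
  rcases this with rfl | rfl
  exacts [⟨genE, genE_mem, genE_val⟩, ⟨genF, genF_mem, genF_val⟩]

theorem real_letter (g : ℕ) : Real sub (letter g) := by
  refine real_sel (H := sub) ?_ _
  simp only [List.forall_mem_cons, List.not_mem_nil, IsEmpty.forall_iff, implies_true, and_true]
  exact ⟨sub_n2, sub_n2i, sub_n3, sub_n3i, real_kWord zAWord_ok (by decide +kernel),
    real_kWord zBWord_ok (by decide +kernel)⟩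

theorem real_repApp (r : ℕ) : Real sub (repApp r) := real_runCode real_letter 4 16 _

/-- A representative involution as a permutation. -/
noncomputable def repPerm (r : ℕ) : LPerm := (real_repApp r).choose

theorem repPerm_mem (r : ℕ) : repPerm r ∈ sub := (real_repApp r).choose_spec.1

theorem repPerm_val (r : ℕ) (i : Fin 4060) : (repPerm r i : ℕ) = repApp r i := (real_repApp r).choose_spec.2 i

theorem seedC_sub : seedC ∈ sub := Subgroup.subset_closure (Set.mem_insert _ _)

theorem seedC_zero : seedC 0 = 0 := Fin.ext ((seedC_val 0).trans fix0_ok.1)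

theorem real_yApp : Real grp yApp := real_wordTab yWord_ok fun g _ => real_nodeTab g

/-- An element normalising the element of order thirteen. -/
noncomputable def yPerm : LPerm := real_yApp.choose

theorem yPerm_mem : yPerm ∈ grp := real_yApp.choose_spec.1

theorem yPerm_val (i : Fin 4060) : (yPerm i : ℕ) = yApp i := real_yApp.choose_spec.2 i

theorem yPerm_zero : yPerm 0 = 0 := by
  refine Fin.ext ((yPerm_val 0).trans ?_)
  decide +kernel

/-- An element of the normaliser as a permutation. -/
noncomputable def mPerm (b a : ℕ) : LPerm := yPerm ^ b * seedC ^ a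

theorem mPerm_val (b a : ℕ) (i : Fin 4060) : (mPerm b a i : ℕ) = mApp b a i := by
  rw [mPerm, Equiv.Perm.mul_apply, iter_pow yPerm_val, iter_pow seedC_val]; rfl

theorem mPerm_mem (b a : ℕ) : mPerm b a ∈ grp := mul_mem (pow_mem yPerm_mem b) (pow_mem seedC_mem a)

theorem mPerm_zero (b a : ℕ) : mPerm b a 0 = 0 := by
  have h : ∀ (g : LPerm), g 0 = 0 → ∀ m : ℕ, (g ^ m) 0 = 0 := fun g hg m => by
    induction m with
    | zero => rfl
    | succ m ih => rw [pow_succ, Equiv.Perm.mul_apply, hg, ih]
  rw [mPerm, Equiv.Perm.mul_apply, h _ seedC_zero, h _ yPerm_zero]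

theorem allSix_spec {f : ℕ → Bool} (h : allSix f = true) (j : ℕ) (hj : j < 6) : f j = true := by
  have key : ∀ m, (Nat.rec true (fun j r => r && f j) m : Bool) = true → ∀ k < m, f k = true := by
    intro m
    induction m with
    | zero => intro _ k hk; omega
    | succ m ih =>
      intro hm k hk
      have hm' : (Nat.rec true (fun j r => r && f j) m : Bool) = true ∧ f m = true := by simpa using hm
      rcases Nat.lt_succ_iff_lt_or_eq.1 hk with hk | rfl
      exacts [ih hm'.1 k hk, hm'.2]
  exact key 6 h j hj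

/-- Two elements agreeing on the first six lines are equal. -/
theorem eq_of_six {g h : LPerm} (hg : g ∈ grp) (hh : h ∈ grp)
    (e : ∀ i : Fin 4060, i.1 < 6 → (g i : ℕ) = h i) : g = h := by
  refine (inv_mul_eq_one.1 (eq_one_of_fix_six (mul_mem (inv_mem hh) hg) fun i hi => ?_)).symm
  rw [Equiv.Perm.mul_apply, Fin.ext (e i hi), Equiv.Perm.inv_def, Equiv.symm_apply_apply]

theorem seedC_pow_thirteen : seedC ^ 13 = 1 := pow_of_step pow13_ok.1 seedC_val

theorem seedC_ne_one : seedC ≠ 1 := by
  intro h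
  have h1 := seedC_val ⟨1, by norm_num⟩
  rw [h] at h1
  revert h1
  show ((1 : ℕ) = tab RuPerm.Data.n2 12 1) → False
  decide +kernel

theorem orderOf_seedC : orderOf seedC = 13 := by
  have : Fact (Nat.Prime 13) := ⟨by norm_num⟩
  exact orderOf_eq_prime seedC_pow_thirteen seedC_ne_one

/-- The normaliser acts on the element of order thirteen by powers. -/
theorem yPerm_conj : yPerm⁻¹ * seedC * yPerm = seedC ^ 2 := by
  have h : yPerm * seedC ^ 2 = seedC * yPerm := by
    refine eq_of_six (mul_mem yPerm_mem (pow_mem seedC_mem 2)) (mul_mem seedC_mem yPerm_mem) fun i hi => ?_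
    rw [Equiv.Perm.mul_apply, Equiv.Perm.mul_apply, yPerm_val, iter_pow seedC_val, seedC_val, yPerm_val]
    exact Nat.eq_of_beq_eq_true (allSix_spec norm_ok i hi)
  rw [mul_assoc, ← h, inv_mul_cancel_left]

theorem mPerm_normalizer (b a : ℕ) :
    mPerm b a ∈ Subgroup.normalizer (Subgroup.zpowers seedC : Set LPerm) := by
  refine mul_mem (pow_mem ?_ b) (pow_mem (Subgroup.le_normalizer (Subgroup.mem_zpowers _)) a)
  rw [Subgroup.mem_normalizer_iff]
  have h1 : yPerm * seedC * yPerm⁻¹ = seedC ^ 7 := by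
    have h2 : yPerm * seedC ^ 2 * yPerm⁻¹ = seedC := by rw [← yPerm_conj]; group
    calc yPerm * seedC * yPerm⁻¹ = yPerm * (seedC ^ 2) ^ 7 * yPerm⁻¹ := by
          rw [← pow_mul, show 2 * 7 = 13 + 1 from rfl, pow_succ, seedC_pow_thirteen, one_mul]
      _ = seedC ^ 7 := by rw [← conj_pow, h2]
  intro h
  constructor
  · intro hh
    obtain ⟨k, rfl⟩ := Subgroup.mem_zpowers_iff.1 hh
    rw [← conj_zpow, h1]
    exact zpow_mem (pow_mem (Subgroup.mem_zpowers _) 7) k
  · intro hh
    obtain ⟨k, hk⟩ := Subgroup.mem_zpowers_iff.1 hh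
    have : h = yPerm⁻¹ * seedC ^ k * (yPerm⁻¹)⁻¹ := by rw [hk]; group
    rw [this, ← conj_zpow, inv_inv, yPerm_conj]
    exact zpow_mem (pow_mem (Subgroup.mem_zpowers _) 2) k

/-- The line stabiliser normalises the seed group. -/
theorem conj_sub {g s : LPerm} (hg : g ∈ grp) (h0 : g 0 = 0) (hs : s ∈ sub) : g * s * g⁻¹ ∈ sub := by
  have hi : (subIn.subgroupOf stab0).index = 2 := by
    have h := (subIn.subgroupOf stab0).card_mul_index
    rw [subIn_equiv_simple.2, card_grp_and_stab.2] at h
    omega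
  have hn := Subgroup.normal_of_index_eq_two hi
  let g' : stab0 := ⟨⟨g, hg⟩, h0⟩
  let s' : stab0 := ⟨⟨s, sub_le hs⟩, subIn_le (Subgroup.mem_subgroupOf.2 hs)⟩
  have h : g' * s' * g'⁻¹ ∈ subIn.subgroupOf stab0 :=
    hn.conj_mem s' (Subgroup.mem_subgroupOf.2 (Subgroup.mem_subgroupOf.2 hs)) g'
  exact Subgroup.mem_subgroupOf.1 (Subgroup.mem_subgroupOf.1 h)

/-- The elements keeping the labels. -/
noncomputable def labGrp : Subgroup LPerm where
  carrier := {g | ∀ i : Fin 4060, pLabel (g i) = pLabel i}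
  one_mem' := fun _ => rfl
  mul_mem' := fun {g h} hg hh i => by rw [Equiv.Perm.mul_apply, hg, hh]
  inv_mem' := fun {g} hg i => by
    conv_rhs => rw [← show g (g⁻¹ i) = i by simp, hg]

theorem label_keep {g : LPerm} (hg : g ∈ grp) (h0 : g 0 = 0) (i : Fin 4060) : pLabel (g i) = pLabel i := by
  have hchk := allBelow_spec labKeep_ok
  have key : ∀ i : Fin 4060, pLabel (tab RuPerm.Data.n2 12 i) = pLabel i ∧
      pLabel (tab RuPerm.Data.n3 12 i) = pLabel i ∧ pLabel (tab RuPerm.Data.n6 12 i) = pLabel i := fun i => by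
    have h := hchk i i.2
    simp only [labKeep, Bool.and_eq_true, Nat.beq_eq] at h
    exact ⟨h.1.1, h.1.2, h.2⟩
  have hsub : sub ≤ labGrp := (Subgroup.closure_le _).2 (by
    rintro s (rfl | rfl) <;> intro i
    · rw [seedC_val]; exact (key i).1
    · rw [seedD_val]; exact (key i).2.1)
  obtain ⟨e, he, hev⟩ := real_n6
  have he0 : e 0 = 0 := Fin.ext ((hev 0).trans fix0_ok.2.2.1)
  have hel : e ∈ labGrp := fun i => by rw [hev]; exact (key i).2.2
  have hi : (subIn.subgroupOf stab0).index = 2 := by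
    have h := (subIn.subgroupOf stab0).card_mul_index
    rw [subIn_equiv_simple.2, card_grp_and_stab.2] at h
    omega
  let g' : stab0 := ⟨⟨g, hg⟩, h0⟩
  let e' : stab0 := ⟨⟨e, he⟩, he0⟩
  have hne : e' ∉ subIn.subgroupOf stab0 := by
    intro h
    obtain ⟨j, k, hjk⟩ := sub_eq (g := e) (Subgroup.mem_subgroupOf.1 (Subgroup.mem_subgroupOf.1 h))
    have hb : oLine j = oLine (0 : Fin 1755) := by
      have h := hev (base 6)
      rw [hjk, Equiv.Perm.mul_apply, kgrp_fix (kap_mem k), tau_base] at h
      rw [h, show ((base 6 : Fin 4060) : ℕ) = baseAt 6 from rfl, fix0_ok.2.2.2, ← tau_base, tau_zero]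
      rfl
    obtain rfl := oLine_inj hb
    rw [tau_zero, one_mul] at hjk
    have hex := allBelow_spec extra_ok k.1 k.2
    have hall : allNine (fun f => Nat.beq (keyAt k.1 f) (tab RuPerm.Data.n6 12 (baseAt f))) = true :=
      allNine_of fun f => by
        rw [Nat.beq_eq, ← kap_val, ← hjk, hev]
        rfl
    rw [extraStep, hall] at hex
    simp at hex
  rcases Classical.em (g' ∈ subIn.subgroupOf stab0) with h | h
  · exact hsub (Subgroup.mem_subgroupOf.1 (Subgroup.mem_subgroupOf.1 h)) i
  · have h2 : e'⁻¹ * g' ∈ subIn.subgroupOf stab0 := by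
      rw [Subgroup.mul_mem_iff_of_index_two hi, inv_mem_iff]
      exact iff_of_false hne h
    have h3 : e⁻¹ * g ∈ labGrp := hsub (Subgroup.mem_subgroupOf.1 (Subgroup.mem_subgroupOf.1 h2))
    have h4 := mul_mem hel h3
    rw [mul_inv_cancel_left] at h4
    exact h4 i

end CfsgLib.RuRankThree
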