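import Cfsg.Agent.Lib.RuRankThree.IndexElems
import Cfsg.Agent.Lib.RuRankThree.IndexChecksC
import Cfsg.Agent.Lib.RuRankThree.IndexChecksD

/-! Every involution of the seed group is conjugate to a representative by an element normalising the element of
order thirteen. -/

set_option autoImplicit false
set_option Elab.async false
set_option maxRecDepth 20000

namespace CfsgLib.RuRankThree

open CfsgLib.SporRecognition.CosetCert CfsgLib.RuPerm

/-- The parents lead to the first key. -/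
noncomputable def depthOK (fuel : ℕ) : ℕ → Bool :=
  Nat.rec (fun k => Nat.beq k 0) (fun _ ih k => Nat.beq k 0 || ih (tab8 RuPerm.Data.kPar 14 k)) fuel

theorem depth_ok : allBelow 14 10240 (depthOK 17) = true := by decide +kernel

theorem mulIdx_succ (n k m : ℕ) : mulIdx (n + 1) k m = bif Nat.beq k 0 then m else
    bif Nat.beq (tab8 RuPerm.Data.kGen 2 k) 0 then
      tab8 RuPerm.Data.kTab0 14 (mulIdx n (tab8 RuPerm.Data.kPar 14 k) m)
    else tab8 RuPerm.Data.kTab1 14 (mulIdx n (tab8 RuPerm.Data.kPar 14 k) m) := rfl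

theorem kap_mul : ∀ (fuel k : ℕ) (hk : k < 10240), depthOK fuel k = true → ∀ m : Fin 10240,
    ∃ h : mulIdx fuel k m < 10240, kap ⟨_, h⟩ = kap ⟨k, hk⟩ * kap m := by
  intro fuel
  induction fuel with
  | zero =>
    intro k hk hd m
    obtain rfl : k = 0 := Nat.eq_of_beq_eq_true hd
    exact ⟨m.2, by rw [show (⟨0, hk⟩ : Fin 10240) = 0 from rfl, kap_zero, one_mul]; rfl⟩
  | succ fuel ih =>
    intro k hk hd m
    rcases Nat.eq_zero_or_pos k with rfl | hpos
    · exact ⟨m.2, by rw [show (⟨0, hk⟩ : Fin 10240) = 0 from rfl, kap_zero, one_mul]; rfl⟩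
    have hb : Nat.beq k 0 = false := by rw [← Bool.not_eq_true, Nat.beq_eq]; omega
    change (Nat.beq k 0 || depthOK fuel (tab8 RuPerm.Data.kPar 14 k)) = true at hd
    rw [hb, Bool.false_or] at hd
    have h := allBelow_spec key_ok k hk
    simp only [keyStep, Bool.or_eq_true, Bool.and_eq_true, Nat.beq_eq, Nat.blt_eq] at h
    obtain ⟨⟨hp, hg⟩, hf⟩ := h.resolve_left (by omega)
    obtain ⟨hlt, heq⟩ := ih _ (hp.trans hk) hd m
    obtain ⟨s, hs, hsv⟩ := kgrp_real hg
    have hk' : kap ⟨k, hk⟩ = s * kap ⟨_, hp.trans hk⟩ := by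
      refine eq_of_base (kgrp_le_grp (kap_mem _)) (kgrp_le_grp (mul_mem hs (kap_mem _))) fun f => ?_
      rw [kap_val, Equiv.Perm.mul_apply, hsv, kap_val]
      exact (Nat.eq_of_beq_eq_true (allNine_spec hf f)).symm
    have step : ∀ T, allBelow 14 10240 (closeStep (tab8 RuPerm.Data.kGen 2 k) T) = true →
        ∃ h : tab8 T 14 (mulIdx fuel (tab8 RuPerm.Data.kPar 14 k) m) < 10240,
          kap ⟨_, h⟩ = kap ⟨k, hk⟩ * kap m := by
      intro T hT
      have h' := allBelow_spec hT _ hlt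
      simp only [closeStep, Bool.and_eq_true, Nat.blt_eq] at h'
      refine ⟨h'.1, ?_⟩
      rw [hk', mul_assoc, ← heq]
      refine eq_of_base (kgrp_le_grp (kap_mem _)) (kgrp_le_grp (mul_mem hs (kap_mem _))) fun f => ?_
      rw [kap_val, Equiv.Perm.mul_apply, hsv, kap_val]
      exact (Nat.eq_of_beq_eq_true (allNine_spec h'.2 f)).symm
    have tr : ∀ (X : LPerm) (v w : ℕ), v = w → (∃ h : w < 10240, kap ⟨w, h⟩ = X) →
        ∃ h : v < 10240, kap ⟨v, h⟩ = X := by
      rintro X v w rfl h; exact h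
    rcases hb0 : Nat.beq (tab8 RuPerm.Data.kGen 2 k) 0 with _ | _
    · refine tr _ _ _ ((mulIdx_succ fuel k m).trans (by rw [hb, cond_false, hb0, cond_false])) (step _ ?_)
      have : tab8 RuPerm.Data.kGen 2 k = 1 := by
        rw [← Bool.not_eq_true, Nat.beq_eq] at hb0; omega
      rw [this]; exact close1_ok
    · refine tr _ _ _ ((mulIdx_succ fuel k m).trans (by rw [hb, cond_false, hb0, cond_true])) (step _ ?_)
      rw [Nat.eq_of_beq_eq_true hb0]; exact close0_ok

/-- A key of an involution is listed. -/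
theorem listed {k : Fin 10240} (hne : kap k ≠ 1) (hsq : kap k * kap k = 1) :
    ∃ s < 271, field Data.invList 14 s = k := by
  obtain ⟨hlt, he⟩ := kap_mul 17 k k.2 (allBelow_spec depth_ok k k.2) k
  have h0 : mulIdx 17 k k = 0 := by
    have := kap_injective ((he.trans hsq).trans kap_zero.symm)
    exact congrArg Fin.val this
  have hk0 : (k : ℕ) ≠ 0 := fun h => hne (by rw [show k = 0 from Fin.ext h, kap_zero])
  have h := allBelow_spec invList_ok k k.2
  simp only [invListStep, h0, Bool.or_eq_true, Bool.and_eq_true, Nat.beq_eq, Nat.blt_eq, Bool.not_eq_true'] at h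
  rcases h with (h | h) | h
  · exact absurd h hk0
  · exact absurd h (by simp)
  · exact ⟨_, h.1, h.2⟩

/-- An involution of the seed group fixes a line of the large suborbit of the seeds. -/
theorem exists_fixed {t : LPerm} (ht : t ∈ sub) (h2 : t * t = 1) :
    ∃ j : Fin 1755, (t ⟨oLine j, oLine_lt j⟩ : ℕ) = oLine j := by
  have hmove : ∀ j : Fin 1755, ∃ i : Fin 1755, t ⟨oLine j, oLine_lt j⟩ = ⟨oLine i, oLine_lt i⟩ := by
    intro j
    obtain ⟨i, k, hik⟩ := sub_eq (mul_mem ht (tau_mem j))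
    refine ⟨i, ?_⟩
    have hb : tau j (base 6) = ⟨oLine j, oLine_lt j⟩ := Fin.ext (tau_base j)
    rw [← hb, ← Equiv.Perm.mul_apply, hik, Equiv.Perm.mul_apply, kgrp_fix (kap_mem k)]
    exact Fin.ext (tau_base i)
  choose π hπ using hmove
  have hinv : Function.Involutive π := fun j => oLine_inj (congrArg Fin.val
    ((hπ (π j)).symm.trans (by rw [← hπ j, ← Equiv.Perm.mul_apply, h2])))
  have : Fact (Nat.Prime 2) := ⟨Nat.prime_two⟩
  obtain ⟨j, hj⟩ := Equiv.Perm.exists_fixed_point_of_prime (p := 2) (n := 1) (σ := hinv.toPerm π)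
    (by rw [Fintype.card_fin]; norm_num) (by
      rw [pow_one, pow_two]
      exact Equiv.ext hinv)
  exact ⟨j, by rw [hπ j]; exact congrArg (fun i : Fin 1755 => oLine i) hj⟩

/-- All translations check. -/
theorem mapRow_ok : ∀ q < 14, mapRow q = true := by
  intro q hq
  interval_cases q
  exacts [mapRow_0, mapRow_1, mapRow_2, mapRow_3, mapRow_4, mapRow_5, mapRow_6, mapRow_7, mapRow_8, mapRow_9,
    mapRow_10, mapRow_11, mapRow_12, mapRow_13]

/-- An involution is moved to a representative by the normaliser. -/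
theorem exists_rep {t : LPerm} (ht : t ∈ sub) (hne : t ≠ 1) (h2 : t * t = 1) :
    ∃ m : LPerm, m ∈ grp ∧ m 0 = 0 ∧ m ∈ Subgroup.normalizer (Subgroup.zpowers seedC : Set LPerm) ∧
      ∃ r < 104, repPerm r = m * t * m⁻¹ := by
  obtain ⟨j, hj⟩ := exists_fixed ht h2
  have hJ := allBelow_spec jStep_ok j j.2
  simp only [jStep, Bool.and_eq_true, Nat.blt_eq, Nat.beq_eq] at hJ
  obtain ⟨⟨hq, hR⟩, hm⟩ := hJ
  set e := tab Data.jCert 12 (j : ℕ) with he
  set q := Nat.shiftRight e 8 with hqdef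
  set m1 := mPerm (field e 4 1) (field e 4 0) with hm1
  set t1 := m1 * t * m1⁻¹ with ht1
  let Q : Fin 1755 := ⟨rPt q, hR⟩
  have hmj : m1 ⟨oLine j, oLine_lt j⟩ = ⟨oLine Q, oLine_lt Q⟩ := Fin.ext (by rw [mPerm_val]; exact hm)
  have ht1s : t1 ∈ sub := conj_sub (mPerm_mem _ _) (mPerm_zero _ _) ht
  have ht1Q : t1 (tau Q (base 6)) = tau Q (base 6) := by
    rw [show tau Q (base 6) = ⟨oLine Q, oLine_lt Q⟩ from Fin.ext (tau_base Q), ← hmj, ht1]
    simp only [Equiv.Perm.mul_apply, Equiv.Perm.inv_def, Equiv.symm_apply_apply]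
    rw [show t ⟨oLine j, oLine_lt j⟩ = ⟨oLine j, oLine_lt j⟩ from Fin.ext hj]
  set k0 := (tau Q)⁻¹ * t1 * tau Q with hk0def
  have hk0 : k0 ∈ sub := mul_mem (mul_mem (inv_mem (tau_mem Q)) ht1s) (tau_mem Q)
  obtain ⟨i, k, hik⟩ := sub_eq hk0
  have hi : oLine i = oLine (0 : Fin 1755) := by
    have h := congrArg (fun g : LPerm => (g (base 6) : ℕ)) hik
    simp only [Equiv.Perm.mul_apply, kgrp_fix (kap_mem k), tau_base, hk0def, ht1Q, Equiv.Perm.inv_def,
      Equiv.symm_apply_apply] at h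
    rw [← h, ← tau_base, tau_zero]; rfl
  obtain rfl := oLine_inj hi
  rw [tau_zero, one_mul] at hik
  have hsq : kap k * kap k = 1 := by
    rw [← hik, hk0def, ht1]
    simp only [mul_assoc, mul_inv_cancel_left, inv_mul_cancel_left]
    rw [← mul_assoc t t, h2, one_mul, mul_inv_cancel_left, inv_mul_cancel]
  have hk1 : kap k ≠ 1 := by
    rw [← hik, hk0def, ht1]
    intro h
    refine hne ?_
    have : m1 * t * m1⁻¹ = 1 := by
      have h' := congrArg (fun g => tau Q * g * (tau Q)⁻¹) h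
      simp only [mul_assoc, mul_inv_cancel_left, mul_inv_cancel, one_mul, mul_one] at h'
      simpa [mul_assoc] using h'
    exact conj_eq_one_iff.1 this
  obtain ⟨s, hs, hsk⟩ := listed hk1 hsq
  have hrow := allBelow_spec (mapRow_ok q hq) s hs
  simp only [mapStep, Bool.and_eq_true, Nat.blt_eq] at hrow
  obtain ⟨hr, hsix⟩ := hrow
  set e2 := mapVal q s
  set m2 := mPerm (field e2 4 1) (field e2 4 0) with hm2
  set r := Nat.shiftRight e2 8 with hrdef
  have heq : repPerm r * (m2 * tau Q) = m2 * tau Q * kap k := by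
    refine eq_of_six (mul_mem (sub_le (repPerm_mem r)) (mul_mem (mPerm_mem _ _) (sub_le (tau_mem Q))))
      (mul_mem (mul_mem (mPerm_mem _ _) (sub_le (tau_mem Q))) (kgrp_le_grp (kap_mem k))) fun p hp => ?_
    obtain ⟨f, hf6, rfl⟩ : ∃ f : Fin 9, f.1 < 6 ∧ base f = p :=
      ⟨⟨p.1, by omega⟩, hp, Fin.ext (baseAt_ok.1 ⟨p.1, hp⟩)⟩
    rw [Equiv.Perm.mul_apply, Equiv.Perm.mul_apply, Equiv.Perm.mul_apply, Equiv.Perm.mul_apply, repPerm_val, hm2,
      mPerm_val, mPerm_val, tau_val, tau_val, kap_val]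
    have h := Nat.eq_of_beq_eq_true (allSix_spec hsix _ hf6)
    rw [hsk] at h
    exact h
  refine ⟨m2 * m1, mul_mem (mPerm_mem _ _) (mPerm_mem _ _),
    by rw [Equiv.Perm.mul_apply, mPerm_zero, mPerm_zero],
    mul_mem (mPerm_normalizer _ _) (mPerm_normalizer _ _), r, hr, ?_⟩
  calc repPerm r = repPerm r * (m2 * tau Q) * (m2 * tau Q)⁻¹ := by group
    _ = m2 * tau Q * kap k * (m2 * tau Q)⁻¹ := by rw [heq]
    _ = m2 * t1 * m2⁻¹ := by rw [← hik, hk0def]; group
    _ = _ := by rw [ht1]; group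

end CfsgLib.RuRankThree
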