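import Cfsg.Agent.Lib.RuRankThree.IndexInvolutions
import Cfsg.Agent.Lib.RuRankThree.IndexChecksE

/-! A subgroup of the seed group of order 7800 or 15600 containing the element of order thirteen fixes exactly one
line of the middle suborbit. -/

set_option autoImplicit false
set_option Elab.async false
set_option maxRecDepth 20000

namespace CfsgLib.RuRankThree

open CfsgLib.SporRecognition.CosetCert CfsgLib.RuPerm

theorem land_one (a : ℕ) : Nat.land a 1 = a % 2 := Nat.and_one_is_mod a

theorem inMask_lor (M p q : ℕ) : inMask (Nat.lor M (Nat.pow 2 q)) p = (inMask M p || decide (q = p)) := by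
  have h : ∀ M p, inMask M p = Nat.testBit M p := fun M p => by
    rw [inMask, land_one, Bool.eq_iff_iff, Nat.beq_eq, Nat.testBit_eq_decide_div_mod_eq, decide_eq_true_eq,
      show Nat.shiftRight M p = M >>> p from rfl, Nat.shiftRight_eq_div_pow]
  rw [h, h]
  show Nat.testBit (M ||| 2 ^ q) p = _
  rw [Nat.testBit_or, Nat.testBit_two_pow]

theorem oMask_succ (o n : ℕ) : oMask o (n + 1) = Nat.lor (oMask o n) (Nat.pow 2 (oAt o n)) := rfl

theorem inMask_oMask (o : ℕ) : ∀ n p, inMask (oMask o n) p = true ↔ ∃ i < n, oAt o i = p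
  | 0, p => by simp [oMask, inMask, land_one, show Nat.shiftRight 0 p = 0 >>> p from rfl]
  | n + 1, p => by
    rw [oMask_succ, inMask_lor, Bool.or_eq_true, inMask_oMask o n p, decide_eq_true_eq]
    constructor
    · rintro (⟨i, hi, e⟩ | e)
      exacts [⟨i, by omega, e⟩, ⟨n, by omega, e⟩]
    · rintro ⟨i, hi, e⟩
      rcases Nat.lt_succ_iff_lt_or_eq.1 hi with hi | rfl
      exacts [Or.inl ⟨i, hi, e⟩, Or.inr e]

theorem oFresh_succ (o n : ℕ) : oFresh o (n + 1) =
    ((oFresh o n).1 && Nat.beq (Nat.land (Nat.shiftRight (oFresh o n).2 (oAt o n)) 1) 0,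
      Nat.lor (oFresh o n).2 (Nat.pow 2 (oAt o n))) := rfl

theorem oFresh_spec (o : ℕ) : ∀ n, (oFresh o n).2 = oMask o n ∧
    ((oFresh o n).1 = true → Set.InjOn (oAt o) (Set.Iio n))
  | 0 => ⟨rfl, fun _ a ha => absurd ha (by simp)⟩
  | n + 1 => by
    obtain ⟨h1, h2⟩ := oFresh_spec o n
    refine ⟨by rw [oFresh_succ, h1, oMask_succ], fun h => ?_⟩
    rw [oFresh_succ, Bool.and_eq_true, h1] at h
    have hn : ∀ i < n, oAt o i ≠ oAt o n := by
      intro i hi e
      have hm := (inMask_oMask o n (oAt o n)).2 ⟨i, hi, e⟩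
      rw [inMask, Nat.eq_of_beq_eq_true h.2] at hm
      exact absurd hm (by decide)
    intro a ha b hb e
    rcases Nat.lt_succ_iff_lt_or_eq.1 (show a < n + 1 from ha) with ha | rfl <;>
      rcases Nat.lt_succ_iff_lt_or_eq.1 (show b < _ + 1 from hb) with hb | rfl
    exacts [h2 h.1 ha hb e, absurd e (hn a ha), absurd e.symm (hn b hb), rfl]

/-- A recorded orbit is the orbit of the two elements. -/
theorem orbit_card {r o : ℕ} (h : orbOK r o = true) :
    ∃ x : Fin 4060, (MulAction.orbit (Subgroup.closure ({seedC, repPerm r} : Set LPerm)) x).ncard =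
      nth Data.orbLen o := by
  simp only [orbOK, Bool.and_eq_true, Nat.blt_eq] at h
  obtain ⟨⟨⟨hlen, h0⟩, hfresh⟩, hstep⟩ := h
  set n := nth Data.orbLen o
  set K := Subgroup.closure ({seedC, repPerm r} : Set LPerm)
  have hC : seedC ∈ K := Subgroup.subset_closure (Set.mem_insert _ _)
  have hT : repPerm r ∈ K := Subgroup.subset_closure (Set.mem_insert_of_mem _ rfl)
  have hs : ∀ i < n, (i = 0 ∨ (Nat.shiftRight (field (nth Data.orbPV o) 12 i) 1 < i ∧
      (bif Nat.beq (Nat.land (field (nth Data.orbPV o) 12 i) 1) 0 then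
          xApp (oAt o (Nat.shiftRight (field (nth Data.orbPV o) 12 i) 1))
        else repApp r (oAt o (Nat.shiftRight (field (nth Data.orbPV o) 12 i) 1))) = oAt o i)) ∧
      (∃ j < n, oAt o j = xApp (oAt o i)) ∧ ∃ j < n, oAt o j = repApp r (oAt o i) := by
    intro i hi
    have hst := allBelow_spec hstep i hi
    simp only [oStep, Bool.and_eq_true, Bool.or_eq_true, Nat.blt_eq, Nat.beq_eq] at hst
    exact ⟨hst.1.1, (inMask_oMask o n _).1 hst.1.2, (inMask_oMask o n _).1 hst.2⟩
  let x : Fin 4060 := ⟨oAt o 0, h0⟩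
  have hreach : ∀ i < n, ∃ z ∈ MulAction.orbit K x, (z : ℕ) = oAt o i := by
    intro i
    induction i using Nat.strong_induction_on with
    | _ i ih =>
      intro hi
      rcases (hs i hi).1 with rfl | ⟨hlt, he⟩
      · exact ⟨x, MulAction.mem_orbit_self _, rfl⟩
      obtain ⟨z, ⟨g, rfl⟩, hz⟩ := ih _ hlt (hlt.trans hi)
      rcases hb : Nat.beq (Nat.land (field (nth Data.orbPV o) 12 i) 1) 0 with _ | _ <;>
        rw [hb] at he <;> simp only [cond_true, cond_false] at he
      · exact ⟨repPerm r (g • x), ⟨⟨_, hT⟩ * g, rfl⟩, by rw [repPerm_val, hz, he]⟩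
      · exact ⟨seedC (g • x), ⟨⟨_, hC⟩ * g, rfl⟩, by rw [seedC_val, hz]; exact he⟩
  have hclosed : ∀ g ∈ K, ∀ z : Fin 4060, (∃ i < n, (z : ℕ) = oAt o i) → ∃ i < n, (g z : ℕ) = oAt o i := by
    intro g hg
    refine le_of_mul_closed ({seedC, repPerm r} : Set LPerm)
      {g : LPerm | ∀ z : Fin 4060, (∃ i < n, (z : ℕ) = oAt o i) → ∃ i < n, (g z : ℕ) = oAt o i}
      (fun z hz => hz) ?_ g hg
    intro s hs' u hu z hz
    obtain ⟨i, hi, he⟩ := hu z hz
    rcases hs' with rfl | rfl
    · obtain ⟨j, hj, e⟩ := (hs i hi).2.1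
      exact ⟨j, hj, by rw [Equiv.Perm.mul_apply, seedC_val, he, e]; rfl⟩
    · obtain ⟨j, hj, e⟩ := (hs i hi).2.2
      exact ⟨j, hj, by rw [Equiv.Perm.mul_apply, repPerm_val, he, e]⟩
  refine ⟨x, ?_⟩
  rw [← Set.ncard_image_of_injective _ Fin.val_injective,
    show (fun z : Fin 4060 => (z : ℕ)) '' MulAction.orbit K x = oAt o '' Set.Iio n from ?_,
    Set.ncard_image_of_injOn ((oFresh_spec o n).2 hfresh), Set.ncard_Iio_nat]
  ext p
  constructor
  · rintro ⟨_, ⟨g, rfl⟩, rfl⟩
    obtain ⟨i, hi, e⟩ := hclosed g.1 g.2 x ⟨0, hlen, rfl⟩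
    exact ⟨i, hi, e.symm⟩
  · rintro ⟨i, hi, rfl⟩
    obtain ⟨z, hz, e⟩ := hreach i hi
    exact ⟨z, hz, e⟩

/-- Orbit sizes divide the order. -/
theorem ncard_orbit_dvd (K : Subgroup LPerm) (x : Fin 4060) :
    (MulAction.orbit K x).ncard ∣ Nat.card K := by
  rw [← Nat.card_coe_set_eq, Nat.card_congr (MulAction.orbitEquivQuotientStabilizer K x)]
  exact Subgroup.card_quotient_dvd_card _

/-- All verdicts check. -/
theorem case_ok : ∀ r < 104, caseStep r = true := by
  intro r hr
  have key : ∀ a, (∀ i : Fin 13, caseStep (a + i.1) = true) → a ≤ r → r < a + 13 → caseStep r = true := by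
    intro a h h1 h2
    have := h ⟨r - a, by omega⟩
    rwa [show a + (r - a) = r by omega] at this
  rcases (show r < 13 ∨ r < 26 ∨ r < 39 ∨ r < 52 ∨ r < 65 ∨ r < 78 ∨ r < 91 ∨ r < 104 by omega) with
    h | h | h | h | h | h | h | h
  · exact key 0 case_0 (by omega) (by omega)
  · by_cases h' : r < 13
    · exact key 0 case_0 (by omega) (by omega)
    · exact key 13 case_13 (by omega) (by omega)
  all_goals
    rcases (show r < 13 ∨ (13 ≤ r ∧ r < 26) ∨ (26 ≤ r ∧ r < 39) ∨ (39 ≤ r ∧ r < 52) ∨ (52 ≤ r ∧ r < 65) ∨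
      (65 ≤ r ∧ r < 78) ∨ (78 ≤ r ∧ r < 91) ∨ 91 ≤ r by omega) with h | h | h | h | h | h | h | h
    · exact key 0 case_0 (by omega) (by omega)
    · exact key 13 case_13 (by omega) (by omega)
    · exact key 26 case_26 (by omega) (by omega)
    · exact key 39 case_39 (by omega) (by omega)
    · exact key 52 case_52 (by omega) (by omega)
    · exact key 65 case_65 (by omega) (by omega)
    · exact key 78 case_78 (by omega) (by omega)
    · exact key 91 case_91 (by omega) (by omega)

/-- A group of order 7800 or 15600 has an involution not inverting a given element of order thirteen. -/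
theorem exists_not_inverting {G : Type*} [Group G] [Finite G] (hG : Nat.card G = 7800 ∨ Nat.card G = 15600)
    (x : G) (hx : orderOf x = 13) : ∃ t : G, orderOf t = 2 ∧ t * x * t⁻¹ ≠ x⁻¹ := by
  by_contra hc
  push Not at hc
  have : Fact (Nat.Prime 13) := ⟨by norm_num⟩
  have : Fact (Nat.Prime 2) := ⟨Nat.prime_two⟩
  have h2 : 2 ∣ Nat.card G := by rcases hG with h | h <;> rw [h] <;> norm_num
  obtain ⟨t, ht⟩ := exists_prime_orderOf_dvd_card' 2 h2
  set Z := Subgroup.zpowers x
  have hZ : Nat.card Z = 13 := by rw [Nat.card_zpowers, hx]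
  have h169 : ¬ 13 * 13 ∣ Nat.card G := by rcases hG with h | h <;> rw [h] <;> norm_num
  -- every conjugate of `x` commutes with `x`
  have hcomm : ∀ h : G, Commute (h * x * h⁻¹) (x ^ 2) := by
    intro h
    set x' := h * x * h⁻¹
    have hinv : ∀ s : G, orderOf s = 2 → s * x' * s⁻¹ = x'⁻¹ := by
      intro s hs
      have hs' : orderOf (h⁻¹ * s * h) = 2 := by
        rw [show h⁻¹ * s * h = MulAut.conj h⁻¹ s by simp,
          MulEquiv.orderOf_eq (MulAut.conj h⁻¹)]
        exact hs
      calc s * x' * s⁻¹ = h * (h⁻¹ * s * h * x * (h⁻¹ * s * h)⁻¹) * h⁻¹ := by simp only [x']; group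
        _ = h * x⁻¹ * h⁻¹ := by rw [hc _ hs']
        _ = x'⁻¹ := by simp only [x']; group
    have e1 := hinv t ht
    have hts : orderOf (x * t * x⁻¹) = 2 := by
      rw [show x * t * x⁻¹ = MulAut.conj x t by simp,
        MulEquiv.orderOf_eq (MulAut.conj x)]
      exact ht
    have e2 := hinv _ hts
    have htx := hc t ht
    have hxt : x * t * x⁻¹ = x ^ 2 * t := by
      have htt : t * t = 1 := by rw [← pow_two, ← ht, pow_orderOf_eq_one]
      have h' : t * x⁻¹ = x * t := by
        calc t * x⁻¹ = t * (t * x * t⁻¹) := by rw [htx]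
          _ = (t * t) * x * t⁻¹ := by group
          _ = x * t := by rw [htt, one_mul, inv_eq_of_mul_eq_one_right htt]
      rw [mul_assoc, h', pow_two, mul_assoc]
    rw [hxt] at e2
    have e3 : x ^ 2 * x'⁻¹ * (x ^ 2)⁻¹ = x'⁻¹ := by
      rw [← e1]
      calc x ^ 2 * (t * x' * t⁻¹) * (x ^ 2)⁻¹ = x ^ 2 * t * x' * (x ^ 2 * t)⁻¹ := by group
        _ = _ := by rw [e2, e1]
    have e4 : x ^ 2 * x' * (x ^ 2)⁻¹ = x' := by
      have := congrArg Inv.inv e3
      simpa [mul_assoc] using this
    exact (mul_inv_eq_iff_eq_mul.1 e4).symm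
  have hnormal : Z.Normal := by
    have hgen : ∀ h : G, h * x * h⁻¹ ∈ Z := by
      intro h
      have hx2 : (x ^ 2) ^ 7 = x := by
        rw [← pow_mul, show 2 * 7 = 13 + 1 from rfl, pow_succ, ← hx, pow_orderOf_eq_one, one_mul]
      have hcx : Commute (h * x * h⁻¹) x := by
        have := (hcomm h).pow_right 7
        rwa [hx2] at this
      by_contra hout
      set A := Z ⊔ Subgroup.zpowers (h * x * h⁻¹)
      have hA : IsPGroup 13 A := by
        refine (IsPGroup.of_card (n := 1) (by rw [hZ, pow_one])).to_sup_of_normal_left'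
          (IsPGroup.of_card (n := 1) ?_) ?_
        · rw [Nat.card_zpowers, show h * x * h⁻¹ = MulAut.conj h x by simp,
            MulEquiv.orderOf_eq (MulAut.conj h), hx, pow_one]
        · rw [Subgroup.zpowers_le, Subgroup.mem_normalizer_iff]
          intro z
          constructor
          · intro hz
            obtain ⟨k, rfl⟩ := Subgroup.mem_zpowers_iff.1 hz
            rw [(hcx.zpow_right k).eq, mul_inv_cancel_right]
            exact hz
          · intro hz
            obtain ⟨k, hk⟩ := Subgroup.mem_zpowers_iff.1 hz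
            have : z = (h * x * h⁻¹)⁻¹ * x ^ k * (h * x * h⁻¹) := by rw [hk]; group
            rw [this, mul_assoc, ← (hcx.zpow_right k).eq, inv_mul_cancel_left]
            exact zpow_mem (Subgroup.mem_zpowers x) k
      obtain ⟨a, ha⟩ := IsPGroup.iff_card.1 hA
      have hd : 13 ^ a ∣ Nat.card G := ha ▸ Subgroup.card_subgroup_dvd_card A
      have ha1 : a ≤ 1 := by
        by_contra h'
        exact h169 (dvd_trans (by norm_num : 13 * 13 ∣ 13 ^ 2) ((pow_dvd_pow 13 (by omega : 2 ≤ a)).trans hd))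
      have : A = Z := (Subgroup.eq_of_le_of_card_ge le_sup_left (by
        rw [ha, hZ]
        calc 13 ^ a ≤ 13 ^ 1 := Nat.pow_le_pow_right (by norm_num) ha1
          _ = 13 := by norm_num)).symm
      exact hout (this ▸ (le_sup_right : Subgroup.zpowers (h * x * h⁻¹) ≤ A) (Subgroup.mem_zpowers _))
    refine ⟨fun z hz h => ?_⟩
    obtain ⟨k, rfl⟩ := Subgroup.mem_zpowers_iff.1 hz
    rw [← conj_zpow]
    exact zpow_mem (hgen h) k
  -- the kernel of the action on `Z` has even order
  let f : G →* MulAut Z := MulAut.conjNormal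
  have haut : Nat.card (MulAut Z) = 12 := by
    have : IsCyclic Z := inferInstance
    rw [Nat.card_congr (IsCyclic.mulAutMulEquiv Z).toEquiv, hZ, Nat.card_eq_fintype_card,
      ZMod.card_units_eq_totient, Nat.totient_prime (by norm_num)]
  have hk := f.ker.card_mul_index
  have hidx : f.ker.index ∣ 12 := by
    rw [Subgroup.index_ker, ← haut]
    exact Subgroup.card_subgroup_dvd_card f.range
  have heven : 2 ∣ Nat.card f.ker := by
    by_contra hodd
    have h8 : 8 ∣ Nat.card f.ker * f.ker.index := by rw [hk]; rcases hG with h | h <;> rw [h] <;> norm_num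
    have : 8 ∣ f.ker.index :=
      (Nat.Coprime.pow_left 3 ((Nat.prime_two.coprime_iff_not_dvd).2 hodd)).dvd_of_dvd_mul_left
        (by norm_num at h8 ⊢; exact h8)
    exact absurd (this.trans hidx) (by norm_num)
  obtain ⟨s, hs⟩ := exists_prime_orderOf_dvd_card' 2 heven
  have hs' : orderOf (s : G) = 2 := by rw [Subgroup.orderOf_coe]; exact hs
  have hfix : (s : G) * x * (s : G)⁻¹ = x := by
    have := congrArg (fun φ : MulAut Z => ((φ ⟨x, Subgroup.mem_zpowers x⟩ : Z) : G)) (MonoidHom.mem_ker.1 s.2)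
    simpa [f, MulAut.conjNormal_apply] using this
  have := (hc _ hs').symm.trans hfix
  have hsq : x ^ 2 = 1 := by
    rw [pow_two]
    nth_rewrite 1 [← this]
    exact inv_mul_cancel x
  have := orderOf_dvd_of_pow_eq_one hsq
  rw [hx] at this
  norm_num at this

/-- The line fixed, and only it. -/
def OneLine (L : Subgroup LPerm) (c : Fin 4060) : Prop :=
  pLabel c = 1 ∧ (∀ g ∈ L, g c = c) ∧ ∀ d : Fin 4060, pLabel d = 1 → (∀ g ∈ L, g d = d) → d = c

theorem oneLine_conj {L : Subgroup LPerm} {g : LPerm} (hg : g ∈ grp) (h0 : g 0 = 0) {c : Fin 4060}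
    (h : OneLine (L.map (MulAut.conj g).toMonoidHom) c) : OneLine L (g⁻¹ c) := by
  obtain ⟨hl, hfix, huniq⟩ := h
  have hlab : ∀ i, pLabel (g i) = pLabel i := label_keep hg h0
  refine ⟨?_, fun s hs => ?_, fun d hd hds => ?_⟩
  · rw [← hl, ← hlab (g⁻¹ c)]; simp
  · have := hfix (g * s * g⁻¹) ⟨s, hs, rfl⟩
    simp only [Equiv.Perm.mul_apply] at this
    exact (Equiv.Perm.eq_inv_iff_eq).2 this
  · have := huniq (g d) (by rw [hlab, hd]) fun s hs => by
      obtain ⟨u, hu, rfl⟩ := hs
      simp [hds u hu]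
    rw [← this]; simp

/-- The main case. -/
theorem oneLine_of_rep {L : Subgroup LPerm} (hL : L ≤ sub) (hcard : Nat.card L = 7800 ∨ Nat.card L = 15600)
    (hx : seedC ∈ L) {r : ℕ} (hr : r < 104) (hT : repPerm r ∈ L) (hne : repPerm r ≠ 1)
    (hT2 : repPerm r * repPerm r = 1)
    (hni : repPerm r * seedC * (repPerm r)⁻¹ ≠ seedC⁻¹) : ∃ c, OneLine L c := by
  have h := case_ok r hr
  set K := Subgroup.closure ({seedC, repPerm r} : Set LPerm)
  have hKL : K ≤ L := (Subgroup.closure_le _).2 (by rintro s (rfl | rfl) <;> assumption)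
  unfold caseStep at h
  rcases h0 : Nat.beq (field (tab Data.repTab 24 r) 2 0) 0 with _ | _
  swap
  · rw [h0, cond_true, invStepX] at h
    exfalso
    refine hni ?_
    have he : repPerm r * seedC * repPerm r * seedC = 1 := by
      refine eq_of_six (mul_mem (mul_mem (mul_mem (sub_le (repPerm_mem r)) seedC_mem) (sub_le (repPerm_mem r)))
        seedC_mem) (one_mem _) fun i hi => ?_
      simp only [Equiv.Perm.mul_apply, repPerm_val, seedC_val, Equiv.Perm.one_apply]
      exact Nat.eq_of_beq_eq_true (allSix_spec h i hi)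
    rw [inv_eq_of_mul_eq_one_right hT2]
    exact eq_inv_of_mul_eq_one_left he
  rw [h0, cond_false] at h
  rcases h1 : Nat.beq (field (tab Data.repTab 24 r) 2 0) 1 with _ | _
  swap
  · rw [h1, cond_true, wordKill] at h
    exfalso
    have hreal : ∀ a, Real L (syl r a) := by
      intro a
      rcases hb : Nat.beq a 0 with _ | _
      · have e : syl r a = iter xApp a := funext fun u => by rw [syl, hb, cond_false]
        rw [e]; exact ⟨seedC ^ a, pow_mem hx a, iter_pow seedC_val a⟩
      · have e : syl r a = repApp r := funext fun u => by rw [syl, hb, cond_true]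
        rw [e]; exact ⟨repPerm r, hT, repPerm_val r⟩
    obtain ⟨g, hg, hgv⟩ := real_runCode hreal 5 16
      (nth Data.killWord (Nat.land (Nat.shiftRight (tab Data.repTab 24 r) 2) 255))
    have hgs : g ∈ sub := by
      have hreal' : ∀ a, Real sub (syl r a) := by
        intro a
        rcases hb : Nat.beq a 0 with _ | _
        · have e : syl r a = iter xApp a := funext fun u => by rw [syl, hb, cond_false]
          rw [e]; exact ⟨seedC ^ a, pow_mem seedC_sub a, iter_pow seedC_val a⟩
        · have e : syl r a = repApp r := funext fun u => by rw [syl, hb, cond_true]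
          rw [e]; exact ⟨repPerm r, repPerm_mem r, repPerm_val r⟩
      obtain ⟨g', hg', hgv'⟩ := real_runCode hreal' 5 16
        (nth Data.killWord (Nat.land (Nat.shiftRight (tab Data.repTab 24 r) 2) 255))
      rwa [show g = g' from Equiv.ext fun i => Fin.ext (by rw [hgv, hgv'])]
    have hD : g = seedD := eq_of_six (sub_le hgs) seedD_mem fun i hi => by
      rw [hgv, seedD_val]; exact Nat.eq_of_beq_eq_true (allSix_spec h i hi)
    have hle : sub ≤ L := (Subgroup.closure_le _).2 (by rintro s (rfl | rfl); exacts [hx, hD ▸ hg])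
    have := Subgroup.card_le_of_le hle
    rw [card_sub] at this
    rcases hcard with e | e <;> rw [e] at this <;> omega
  rw [h1, cond_false] at h
  rcases h2 : Nat.beq (field (tab Data.repTab 24 r) 2 0) 2 with _ | _
  swap
  · rw [h2, cond_true, Bool.and_eq_true, Nat.beq_eq] at h
    exfalso
    obtain ⟨p, hp⟩ := orbit_card h.2
    have hd : 351 ∣ Nat.card L := h.1 ▸ hp ▸ (ncard_orbit_dvd K p).trans (Subgroup.card_dvd_of_le hKL)
    rcases hcard with e | e <;> rw [e] at hd <;> norm_num at hd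
  rw [h2, cond_false] at h
  simp only [Bool.and_eq_true, Nat.beq_eq, oneFix] at h
  obtain ⟨⟨hlen, horb⟩, ⟨hc, hfixc⟩, hoff⟩ := h
  obtain ⟨p, hp⟩ := orbit_card horb
  have h975 : 975 ∣ Nat.card K := hlen ▸ hp ▸ ncard_orbit_dvd K p
  have h2K : 2 ∣ Nat.card K := by
    have : Fact (Nat.Prime 2) := ⟨Nat.prime_two⟩
    have := Subgroup.orderOf_dvd_natCard K (Subgroup.subset_closure (Set.mem_insert_of_mem _ rfl) : repPerm r ∈ K)
    rwa [orderOf_eq_prime (by rw [pow_two, hT2]) hne] at this
  have h1950 : 1950 ∣ Nat.card K := Nat.Coprime.mul_dvd_of_dvd_of_dvd (by norm_num : Nat.Coprime 975 2) h975 h2K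
  set cc := Nat.shiftRight (tab Data.repTab 24 r) 10
  have hcmem : cc ∈ xFixed := by
    obtain ⟨d, hd, hde⟩ := List.any_eq_true.1 hc
    rwa [Nat.eq_of_beq_eq_true hde]
  have hxf : ∀ v ∈ xFixed, v < 4060 ∧ xApp v = v ∧ pLabel v = 1 := by decide +kernel
  let c : Fin 4060 := ⟨cc, (hxf _ hcmem).1⟩
  have hKc : K ≤ MulAction.stabilizer LPerm c := (Subgroup.closure_le _).2 (by
    rintro s (rfl | rfl)
    · exact Fin.ext ((seedC_val c).trans (hxf _ hcmem).2.1)
    · exact Fin.ext ((repPerm_val r c).trans hfixc))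
  -- a line of the middle suborbit fixed by the generators
  have honly : ∀ d : Fin 4060, pLabel d = 1 → seedC d = d → repPerm r d ∈
      {e : Fin 4060 | pLabel e = 1 ∧ seedC e = e} → d = c := by
    intro d hd hdx ⟨he1, he2⟩
    have hmem : ∀ e : Fin 4060, pLabel e = 1 → seedC e = e → (e : ℕ) ∈ xFixed := by
      intro e he1 he2
      have h := allBelow_spec fixX_ok e e.2
      simp only [fixX, Bool.or_eq_true, Bool.not_eq_true'] at h
      have hx' : xApp (e : ℕ) = e := by
        have := seedC_val e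
        rw [he2] at this
        exact this.symm
      rw [hx', Nat.beq_refl, he1] at h
      obtain ⟨v, hv, hve⟩ := List.any_eq_true.1 (h.resolve_left (by simp))
      rwa [Nat.eq_of_beq_eq_true hve]
    have h' := List.all_eq_true.1 hoff _ (hmem d hd hdx)
    simp only [Bool.or_eq_true, Nat.beq_eq, Bool.not_eq_true'] at h'
    rcases h' with h' | h'
    · exact Fin.ext h'
    · have := hmem _ he1 he2
      rw [repPerm_val] at this
      rw [List.any_eq_false] at h'
      exact absurd (Nat.beq_refl _) (h' _ this)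
  refine ⟨c, (hxf _ hcmem).2.2, ?_, fun d hd hds => honly d hd (hds _ hx) ⟨by rw [hds _ hT]; exact hd,
    by rw [hds _ hT]; exact hds _ hx⟩⟩
  set O := MulAction.orbit L c
  have hsmall : O.ncard < 13 := by
    have hos : O.ncard * Nat.card (MulAction.stabilizer L c) = Nat.card L := by
      rw [← Nat.card_coe_set_eq, Nat.card_congr (MulAction.orbitEquivQuotientStabilizer L c)]
      exact (Subgroup.card_eq_card_quotient_mul_card_subgroup _).symm
    have hK : Nat.card K ∣ Nat.card (MulAction.stabilizer L c) :=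
      Subgroup.card_dvd_of_injective (Subgroup.inclusion hKL |>.codRestrict (MulAction.stabilizer L c)
        (fun s => hKc s.2)) fun a b e => Subgroup.inclusion_injective hKL (congrArg Subtype.val e)
    obtain ⟨q, hq⟩ := h1950.trans hK
    rw [hq] at hos
    by_contra hge
    push Not at hge
    have hq0 : 0 < q := by
      rcases Nat.eq_zero_or_pos q with rfl | hq0
      · rcases hcard with e | e <;> omega
      · exact hq0
    have : 13 * 1950 ≤ Nat.card L := hos ▸ Nat.mul_le_mul hge (Nat.le_mul_of_pos_right _ hq0)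
    omega
  have hzero : ∀ g ∈ L, g 0 = (0 : Fin 4060) := fun g hg =>
    subIn_le (Subgroup.mem_subgroupOf.2 (hL hg) : (⟨g, sub_le (hL hg)⟩ : grp) ∈ subIn)
  have hOlab : ∀ e ∈ O, pLabel (e : Fin 4060) = 1 := by
    rintro _ ⟨g, rfl⟩
    exact (label_keep (sub_le (hL g.2)) (hzero _ g.2) c).trans (hxf _ hcmem).2.2
  have hstab : ∀ g ∈ L, ∀ e ∈ O, g e ∈ O := by
    rintro g hg _ ⟨u, rfl⟩
    exact ⟨⟨g, hg⟩ * u, rfl⟩
  have hOx : ∀ e ∈ O, seedC e = e := by
    intro e he
    have hsub : MulAction.orbit (Subgroup.zpowers seedC) e ⊆ O := by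
      rintro _ ⟨z, rfl⟩
      exact hstab _ ((Subgroup.zpowers_le.2 hx) z.2) _ he
    have hd := ncard_orbit_dvd (Subgroup.zpowers seedC) e
    rw [Nat.card_zpowers, orderOf_seedC] at hd
    have hlt := Set.ncard_le_ncard hsub
    rcases (Nat.dvd_prime (by norm_num)).1 hd with h1 | h13
    · obtain ⟨u, hu⟩ := Set.ncard_eq_one.1 h1
      have e1 : seedC e = u := (Set.ext_iff.1 hu _).1 ⟨⟨seedC, Subgroup.mem_zpowers _⟩, rfl⟩
      have e2 : e = u := (Set.ext_iff.1 hu _).1 (MulAction.mem_orbit_self e)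
      rw [e1, ← e2]
    · exfalso
      exact absurd (h13 ▸ hlt) (by omega)
  intro g hg
  have hgO : g c ∈ O := hstab g hg c (MulAction.mem_orbit_self c)
  have hTO := hstab _ hT _ hgO
  exact honly _ (hOlab _ hgO) (hOx _ hgO) ⟨hOlab _ hTO, hOx _ hTO⟩

end CfsgLib.RuRankThree
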